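import Cfsg.Agent.H65.AnP4fKit

/-!
# AN-P4F: the image of `yy` under a normalised twist
-/

set_option autoImplicit false
set_option linter.unusedSectionVars false

namespace Cfsg.Agent.H65.AnP4f

open Cfsg Cfsg.Agent.H63.AN Subgroup
open Cfsg.Agent.H7.AA (d2 nodup4 d2_conj sign_d2 fix_of_comm_c3)
open Cfsg.Agent.H78
open Equiv (swap Perm)
open Equiv.Perm (sign)
open scoped commutatorElement

variable {α : Type} [Fintype α] [DecidableEq α] {x : Fin 10 ↪ α} {φ φ' : Perm α → Perm α}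
  {T : ℕ → Prop}

theorem mem_F {e : α} : e ∈ (em x zz).supportᶜ ↔ em x zz e = e := by simp

theorem x8F : x 8 ∈ (em x zz).supportᶜ := mem_F.2 (by rw [em_apply]; rfl)

theorem x9F : x 9 ∈ (em x zz).supportᶜ := mem_F.2 (by rw [em_apply]; rfl)

theorem x89 : x 8 ≠ x 9 := x.injective.ne (by decide)

theorem off {e : α} (h : e ∈ (em x zz).supportᶜ) (h8 : e ≠ x 8) (h9 : e ≠ x 9) (i : Fin 10) :
    x i ≠ e := by
  rintro rfl
  rw [mem_F, em_apply] at h
  have k : ∀ i : Fin 10, zz i = i → i = 8 ∨ i = 9 := by decide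
  rcases k i (x.injective h) with rfl | rfl
  exacts [h8 rfl, h9 rfl]

theorem card_F : ((em x zz).supportᶜ).card + 8 = Fintype.card α := by
  have : (em x zz).support.card = 8 := by rw [card_em]; decide
  rw [← this, Finset.card_compl_add_card]

theorem em_mem {m : Perm (Fin 10)} (h8 : m 8 = 8) (h9 : m 9 = 9) :
    em x m ∈ symOn (em x zz).support := fun e he => by
  have he' : e ∈ (em x zz).supportᶜ := Finset.mem_compl.2 he
  by_cases a : e = x 8
  · rw [a, em_apply, h8]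
  by_cases b : e = x 9
  · rw [b, em_apply, h9]
  exact em_of_not x m (off he' a b)

theorem em_comm {m : Perm (Fin 10)} (h8 : m 8 = 8) (h9 : m 9 = 9) {a : Perm α}
    (ha : a ∈ symOn (em x zz).supportᶜ) : Commute (em x m) a :=
  commute_of_mem_symOn disjoint_compl_right (em_mem h8 h9) ha

theorem alt_CA {a : Perm α} (ha : a ∈ altOn (em x zz).supportᶜ) : a ∈ CA (em x zz) :=
  mem_CA.2 ⟨(em_comm rfl rfl ha.1).symm, ha.2⟩

theorem em_CA {m : Perm (Fin 10)} (h : m * zz = zz * m) (s : sign m = 1) :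
    em x m ∈ CA (em x zz) :=
  mem_CA.2 ⟨(show Commute m zz from h).map (em x), by rw [sign_em, s]⟩

theorem em_s0 : em x s0 = swap (x 8) (x 9) := em_swap x 8 9

theorem s0_mem : em x s0 ∈ symOn (em x zz).supportᶜ := em_s0 (x := x) ▸ swap_mem_symOn x8F x9F

/-- `φ` as a homomorphism -/
noncomputable def hom (h : Tw4 x φ φ' T) : CA (em x zz) →* Perm α :=
  MonoidHom.mk' (fun a => φ a) fun a b => h.tw.1.mul a a.2 b b.2

theorem f_one (h : Tw4 x φ φ' T) : φ 1 = 1 := (hom h).map_one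

theorem f_inv (h : Tw4 x φ φ' T) {a : Perm α} (ha : a ∈ CA (em x zz)) : φ a⁻¹ = (φ a)⁻¹ :=
  (hom h).map_inv ⟨a, ha⟩

theorem f_pow (h : Tw4 x φ φ' T) {a : Perm α} (ha : a ∈ CA (em x zz)) (n : ℕ) :
    φ (a ^ n) = φ a ^ n := (hom h).map_pow ⟨a, ha⟩ n

theorem f_conj (h : Tw4 x φ φ' T) {g a : Perm α} (hg : g ∈ CA (em x zz)) (ha : a ∈ CA (em x zz)) :
    φ (g * a * g⁻¹) = φ g * φ a * (φ g)⁻¹ := by
  rw [h.tw.1.mul _ (mul_mem hg ha) _ (inv_mem hg), h.tw.1.mul _ hg _ ha, f_inv h hg]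

theorem f_comm (h : Tw4 x φ φ' T) {g a : Perm α} (hg : g ∈ CA (em x zz)) (ha : a ∈ CA (em x zz))
    (c : Commute g a) : Commute (φ g) (φ a) := by
  change _ = _
  rw [← h.tw.1.mul _ hg _ ha, c.eq, h.tw.1.mul _ ha _ hg]

/-- `φ` on the alternating group of the fixed points -/
noncomputable def homF (h : Tw4 x φ φ' T) : altOn (em x zz).supportᶜ →* Perm α :=
  (hom h).comp (inclusion fun _ ha => alt_CA ha)

theorem f_alt (d : P4dStmt) (e : P4eStmt) (h : Tw4 x φ φ' T) {a : Perm α}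
    (ha : a ∈ altOn (em x zz).supportᶜ) : φ a ∈ altOn (em x zz).supportᶜ := by
  have L := (e α x φ φ' T h).1
  have : altOn (em x zz).supportᶜ ≤
      ((altOn (em x zz).supportᶜ).comap (homF h)).map (altOn (em x zz).supportᶜ).subtype := by
    refine altOn_le_of_forall_c3 fun u hu v hv w hw uv uw vw => ?_
    have hc := c3_mem_altOn hu hv hw uv vw
    refine ⟨⟨_, hc⟩, ?_, rfl⟩
    change φ (c3 u v w) ∈ altOn (em x zz).supportᶜ
    have b3 : φ (c3 u v w) ^ 3 = 1 := by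
      rw [← f_pow h (alt_CA hc), c3_pow_three uv uw vw, f_one h]
    have c12 : em x s12 ∈ CA (em x zz) := em_CA (by decide) (by decide)
    have c23 : em x s23 ∈ CA (em x zz) := em_CA (by decide) (by decide)
    have c34 : em x s34 ∈ CA (em x zz) := em_CA (by decide) (by decide)
    have l1 : Like (em x zz) 1 (φ (c3 u v w)) := by
      refine ⟨(L _ (alt_CA hc)).1, fun q hq => ?_⟩
      have m : q ∈ symOn (em x zz).support := fun s hs =>
        (hq.2 s).elim id fun k => k.trans (Equiv.Perm.notMem_support.1 hs)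
      rw [(L _ (alt_CA hc)).2 q hq, ← (commute_of_mem_symOn disjoint_compl_right m hc.1).eq]
      group
    obtain ⟨r, i, σ, hσ, eb, -⟩ := (d α x).2 _ _ _ _ l1 (L _ c12) (L _ c23) (L _ c34)
      (f_comm h (alt_CA hc) c12 (em_comm rfl rfl hc.1).symm)
      (f_comm h (alt_CA hc) c23 (em_comm rfl rfl hc.1).symm)
    have k : ∀ r i : Bool, (pw r t4 * pw i zz) ^ 3 = pw r t4 * pw i zz ∧
        (pw r t4 * pw i zz) 8 = 8 ∧ (pw r t4 * pw i zz) 9 = 9 := by decide
    obtain ⟨k1, k8, k9⟩ := k r i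
    have m1 : em x (pw r t4 * pw i zz) = 1 := by
      refine eq_one_of_both (em_mem k8 k9) ?_
      have := b3
      rw [eb, (em_comm k8 k9 hσ).mul_pow, ← map_pow, k1] at this
      rw [eq_inv_of_mul_eq_one_left this]
      exact inv_mem (pow_mem hσ 3)
    rw [m1, one_mul] at eb
    refine ⟨eb ▸ hσ, ?_⟩
    change sign (φ (c3 u v w)) = 1
    have := congrArg sign b3
    rw [map_pow, map_one] at this
    rcases Int.units_eq_one_or (sign (φ (c3 u v w))) with k | k
    · exact k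
    · rw [k] at this; exact absurd this (by decide)
  obtain ⟨b, hb, rfl⟩ := this ha
  exact hb

theorem yCA : em x yy ∈ CA (em x zz) := em_CA (by decide) (by decide)

theorem f_s0 (d : P4dStmt) (e : P4eStmt) (h : Tw4 x φ φ' T) {i : Bool} {σ : Perm α}
    (ey : φ (em x yy) = em x (t4 * pw i zz) * σ) {a : Perm α}
    (ha : a ∈ altOn (em x zz).supportᶜ) :
    φ (em x s0 * a * (em x s0)⁻¹) = σ * φ a * σ⁻¹ := by
  have k : ∀ i : Bool, (t4 * pw i zz) 8 = 8 ∧ (t4 * pw i zz) 9 = 9 := by decide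
  have c1 := em_comm (x := x) (m := t4) rfl rfl (conj_mem s0_mem ha).1
  have e1 : em x s0 * a * (em x s0)⁻¹ = em x yy * a * (em x yy)⁻¹ := by
    rw [yy, map_mul]
    calc _ = em x t4 * (em x s0 * a * (em x s0)⁻¹) * (em x t4)⁻¹ := by
          rw [c1.eq, mul_inv_cancel_right]
      _ = _ := by group
  have c2 := em_comm (x := x) (k i).1 (k i).2 (f_alt d e h (conj_mem s0_mem ha)).1
  have e2 := f_conj h yCA (alt_CA ha)
  rw [← e1, ey] at e2
  calc _ = (em x (t4 * pw i zz))⁻¹ * φ (em x s0 * a * (em x s0)⁻¹) * em x (t4 * pw i zz) := by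
        rw [mul_assoc (em x (t4 * pw i zz))⁻¹, ← c2.eq, inv_mul_cancel_left]
    _ = _ := by rw [e2]; group

/-- the fixed points other than `x 8`, `x 9` -/
noncomputable def R (x : Fin 10 ↪ α) : Finset α := (((em x zz).supportᶜ).erase (x 8)).erase (x 9)

theorem mem_R {e : α} : e ∈ R x ↔ e ≠ x 9 ∧ e ≠ x 8 ∧ e ∈ (em x zz).supportᶜ := by
  rw [R, Finset.mem_erase, Finset.mem_erase]

theorem card_R : (R x).card + 2 = ((em x zz).supportᶜ).card := by
  rw [R, ← Finset.card_erase_add_one (x8F (x := x)),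
    ← Finset.card_erase_add_one (Finset.mem_erase.2 ⟨(x89 (x := x)).symm, x9F⟩)]

theorem R_le : R x ⊆ (em x zz).supportᶜ := fun _ h => (mem_R.1 h).2.2

theorem s0_comm {a : Perm α} (ha : a ∈ symOn (R x)) : Commute (em x s0) a := by
  refine commute_of_mem_symOn (X := {x 8, x 9}) ?_ ?_ ha
  · refine Finset.disjoint_left.2 fun e he hr => ?_
    rw [mem_R] at hr
    simp only [Finset.mem_insert, Finset.mem_singleton] at he
    tauto
  · rw [em_s0]
    exact swap_mem_symOn (by simp) (by simp)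

theorem c_ne (h : Tw4 x φ φ' T) (hn : 11 ≤ Fintype.card α)
    (h11 : Fintype.card α = 11 → ∀ c ∈ altOn (em x zz).supportᶜ, c ≠ 1 → φ c ≠ 1)
    {e0 : α} (he : e0 ∈ R x) : φ (c3 (x 8) (x 9) e0) ≠ 1 := by
  obtain ⟨n9, n8, eF⟩ := mem_R.1 he
  have n := x89 (x := x)
  have hc := c3_mem_altOn x8F x9F eF n n9.symm
  by_cases q : Fintype.card α = 11
  · exact h11 q _ hc (c3_ne_one n n8.symm)
  intro e
  obtain ⟨e1, h1⟩ : ((R x).erase e0).Nonempty := by
    refine Finset.card_pos.1 ?_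
    have := card_R (x := x)
    have := card_F (x := x)
    have := Finset.card_erase_add_one he
    omega
  obtain ⟨n01, h1⟩ := Finset.mem_erase.1 h1
  obtain ⟨m9, m8, e1F⟩ := mem_R.1 h1
  have hg := d2_mem (nodup4.2 ⟨n01.symm, n8, n9, m8, m9, n⟩) eF e1F x8F x9F
  have k := f_conj h (alt_CA hg) (alt_CA hc)
  have e2 : d2 e0 e1 (x 8) (x 9) * c3 (x 8) (x 9) e0 * (d2 e0 e1 (x 8) (x 9))⁻¹ =
      (c3 (x 9) e1 (x 8))⁻¹ := by
    rw [c3_conj, c3_inv m9.symm n.symm m8]
    congr 1 <;> simp only [H7.AA.d2_apply, Equiv.swap_apply_def] <;> grind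
  have hc' := c3_mem_altOn x9F e1F x8F m9.symm m8
  rw [e, mul_one, mul_inv_cancel, e2, f_inv h (alt_CA hc'), inv_eq_one] at k
  have := h.tw.1.inj _ (alt_CA (mul_mem hc hc')) (by
    ext s
    simp only [Equiv.Perm.mul_apply, c3_apply, Equiv.swap_apply_def, Equiv.Perm.one_apply]
    grind) (by rw [h.tw.1.mul _ (alt_CA hc) _ (alt_CA hc'), e, k, one_mul])
  have := DFunLike.congr_fun this e0
  simp only [Equiv.Perm.mul_apply, c3_apply, Equiv.swap_apply_def, Equiv.Perm.one_apply] at this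
  grind

theorem sig (nat : NatStmt) (d : P4dStmt) (e : P4eStmt) (h : Tw4 x φ φ' T)
    (hn : 11 ≤ Fintype.card α)
    (h11 : Fintype.card α = 11 → ∀ c ∈ altOn (em x zz).supportᶜ, c ≠ 1 → φ c ≠ 1)
    {i : Bool} {σ : Perm α} (hσ : σ ∈ symOn (em x zz).supportᶜ) (σ2 : σ * σ = 1)
    (ey : φ (em x yy) = em x (t4 * pw i zz) * σ) :
    σ.IsSwap ∨ ((R x).card = 4 ∧ σ.support.card = 6 ∧ sign σ = -1) := by
  have cR := card_R (x := x)
  have cF := card_F (x := x)
  obtain ⟨e0, he⟩ : (R x).Nonempty := Finset.card_pos.1 (by omega)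
  have b1 := c_ne h hn h11 he
  obtain ⟨n9, n8, eF⟩ := mem_R.1 he
  have n := x89 (x := x)
  have hc := c3_mem_altOn x8F x9F eF n n9.symm
  have b3 : φ (c3 (x 8) (x 9) e0) ^ 3 = 1 := by
    rw [← f_pow h (alt_CA hc), c3_pow_three n n8.symm n9.symm, f_one h]
  have iv := f_s0 d e h ey hc
  rw [c3_conj, em_s0, Equiv.swap_apply_left, Equiv.swap_apply_right,
    Equiv.swap_apply_of_ne_of_ne n8 n9, c3_rotate n.symm n9.symm n8.symm,
    ← c3_inv n n8.symm n9.symm, f_inv h (alt_CA hc)] at iv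
  have σ1 : σ ≠ 1 := by
    rintro rfl
    rw [one_mul, inv_one, mul_one, inv_eq_iff_mul_eq_one] at iv
    rw [pow_succ, pow_two, iv, one_mul] at b3
    exact b1 b3
  by_cases f4 : ((em x zz).supportᶜ).card ≤ 4
  · exact Or.inl (swap_of_small f4 hσ σ2 σ1 (f_alt d e h hc).1 b3 b1 iv.symm)
  have hi : Function.Injective (homF h) := by
    have := simple_altOn (X := (em x zz).supportᶜ) (by omega)
    rcases (homF h).normal_ker.eq_bot_or_eq_top with k | k
    · exact (homF h).ker_eq_bot_iff.1 k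
    · exact absurd (k.ge (mem_top ⟨_, hc⟩)) b1
  obtain ⟨k, k1, k2⟩ := inv_card σ2
  have k3 := card_pos σ1
  by_cases f7 : 7 ≤ ((em x zz).supportᶜ).card
  · have := (nat α (R x) _ ((homF h).comp (inclusion (altOn_mono R_le))) σ
      (hi.comp (inclusion_injective _)) (by omega) (by omega)
      (fun a => (f_alt d e h (altOn_mono R_le a.2)).1) hσ σ2 (fun a => by
        have := f_s0 d e h ey (altOn_mono R_le a.2)
        rw [(s0_comm a.2.1).eq, mul_inv_cancel_right, eq_mul_inv_iff_mul_eq] at this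
        exact this)).2.1
    exact Or.inl (Equiv.Perm.card_support_eq_two.1 (by omega))
  have so : sign σ = -1 := by
    refine (Int.units_eq_one_or _).resolve_left fun s1 => ?_
    let ψ := (homF h).codRestrict (altOn (em x zz).supportᶜ) fun a => f_alt d e h a.2
    have hψ : Function.Injective ψ := fun a b q => hi (congrArg Subtype.val q)
    obtain ⟨⟨a0, ha0⟩, q⟩ := Finite.injective_iff_surjective.1 hψ ⟨σ, hσ, s1⟩
    replace q : φ a0 = σ := congrArg Subtype.val q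
    have cm : ∀ a ∈ altOn (em x zz).supportᶜ, a0⁻¹ * em x s0 * a = a * (a0⁻¹ * em x s0) := by
      intro a ha
      have r := f_s0 d e h ey ha
      rw [← q, ← f_conj h (alt_CA ha0) (alt_CA ha)] at r
      have r' : em x s0 * a * (em x s0)⁻¹ = a0 * a * a0⁻¹ := congrArg Subtype.val
        (hi (a₁ := ⟨_, conj_mem s0_mem ha⟩) (a₂ := ⟨_, conj_mem ha0.1 ha⟩) r)
      calc _ = a0⁻¹ * (em x s0 * a * (em x s0)⁻¹) * em x s0 := by group
        _ = _ := by rw [r']; group
    have fx : ∀ u ∈ R x, (a0⁻¹ * em x s0) (x 8) = x 8 ∧ (a0⁻¹ * em x s0) (x 9) = x 9 ∧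
        (a0⁻¹ * em x s0) u = u := by
      intro u hu
      obtain ⟨v, hv⟩ : ((R x).erase u).Nonempty := by
        refine Finset.card_pos.1 ?_
        have := Finset.card_erase_add_one hu
        omega
      obtain ⟨vu, hv⟩ := Finset.mem_erase.1 hv
      obtain ⟨u9, u8, uF⟩ := mem_R.1 hu
      obtain ⟨v9, v8, vF⟩ := mem_R.1 hv
      have := fix_of_comm_c3 (nodup4.2 ⟨n, u8.symm, v8.symm, u9.symm, v9.symm, vu.symm⟩)
        (cm _ (c3_mem_altOn x8F x9F uF n u9.symm)) (cm _ (c3_mem_altOn x8F x9F vF n v9.symm))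
      exact ⟨this.1, this.2.1, this.2.2.1⟩
    have g1 : a0⁻¹ * em x s0 = 1 := by
      ext s
      by_cases sF : s ∈ (em x zz).supportᶜ
      · by_cases s8 : s = x 8
        · rw [s8]; exact (fx e0 he).1
        by_cases s9 : s = x 9
        · rw [s9]; exact (fx e0 he).2.1
        exact (fx s (mem_R.2 ⟨s9, s8, sF⟩)).2.2
      · exact (symOn _).mul_mem ((symOn _).inv_mem ha0.1) s0_mem s sF
    have s : sign a0 = 1 := ha0.2
    rw [inv_mul_eq_one.1 g1, sign_em] at s
    exact absurd s (by decide)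
  have k4 := card_le hσ
  have k5 : k ≠ 2 := by
    rintro rfl
    rw [so] at k2
    exact absurd k2 (by decide)
  by_cases k6 : k = 1
  · exact Or.inl (Equiv.Perm.card_support_eq_two.1 (by omega))
  · exact Or.inr ⟨by omega, by omega, so⟩

theorem moved {X : Finset α} {p : Perm α} (hp : p ∈ symOn X) {s : α} (h : p s ≠ s) : s ∈ X := by
  by_contra hn
  exact h (hp s hn)

theorem conj_em {m : Perm (Fin 10)} (h8 : m 8 = 8) (h9 : m 9 = 9) {a : Perm α}
    (ha : a ∈ symOn (em x zz).supportᶜ) (σ : Perm α) :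
    a * (em x m * σ) * a⁻¹ = em x m * (a * σ * a⁻¹) := by
  rw [← mul_assoc a, ← (em_comm h8 h9 ha).eq]; group

theorem swap_case {σ : Perm α} (hσ : σ ∈ symOn (em x zz).supportᶜ) (hs : σ.IsSwap) :
    ∃ a ∈ altOn (em x zz).supportᶜ, a * σ * a⁻¹ = em x s0 := by
  obtain ⟨u, v, uv, rfl⟩ := hs
  have hu := moved hσ (s := u) (by rw [Equiv.swap_apply_left]; exact uv.symm)
  have hv := moved hσ (s := v) (by rw [Equiv.swap_apply_right]; exact uv)
  have n := x89 (x := x)
  obtain ⟨a, ha, k⟩ := exists_symOn (em x zz).supportᶜ (f := ![u, v]) (g := ![x 8, x 9])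
    (List.nodup_ofFn.1 (by simp [uv])) (List.nodup_ofFn.1 (by simp [n]))
    (fun i => by fin_cases i <;> assumption)
    (fun i => by fin_cases i; exacts [x8F, x9F])
  obtain ⟨a', ha', k'⟩ := even_of n x8F x9F ha
  refine ⟨a', ha', k' _ _ (em_s0 (x := x) ▸ Commute.refl _) ?_⟩
  have k0 : a u = x 8 := k 0
  have k1 : a v = x 9 := k 1
  rw [← Equiv.swap_apply_apply, k0, k1, em_s0]

theorem six (d : P4dStmt) (e : P4eStmt) (h : Tw4 x φ φ' T)
    {i : Bool} {σ : Perm α} (hσ : σ ∈ symOn (em x zz).supportᶜ) (σ2 : σ * σ = 1)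
    (ey : φ (em x yy) = em x (t4 * pw i zz) * σ) (r4 : (R x).card = 4)
    (σ6 : σ.support.card = 6) (so : sign σ = -1) :
    φ' (φ (em x yy)) = em x yy ∧ ∃ a ∈ altOn (em x zz).supportᶜ,
    (¬ T 12 ∧ ∃ e1 e2 e3 e4, Four x e1 e2 e3 e4 ∧
      a * φ (em x yy) * a⁻¹ = em x yy * d2 e1 e2 e3 e4 ∧
      a * φ (d2 e1 e2 e3 e4) * a⁻¹ = d2 e1 e2 e3 e4 ∧
      φ' (φ (d2 e1 e2 e3 e4)) = d2 e1 e2 e3 e4) := by
  have cR := card_R (x := x)
  obtain ⟨e1, e2, e3, e4, n1, n2, n3, n4, n5, n6, hR⟩ := Finset.card_eq_four.1 r4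
  have nd : [e1, e2, e3, e4].Nodup := nodup4.2 ⟨n1, n2, n3, n4, n5, n6⟩
  have r1 : e1 ∈ R x := by rw [hR]; simp
  have r2 : e2 ∈ R x := by rw [hR]; simp
  have r3 : e3 ∈ R x := by rw [hR]; simp
  have r4' : e4 ∈ R x := by rw [hR]; simp
  have offR : ∀ s ∈ R x, ∀ j, x j ≠ s := fun s hs =>
    off (mem_R.1 hs).2.2 (mem_R.1 hs).2.1 (mem_R.1 hs).1
  have uR := d2_mem nd r1 r2 r3 r4'
  have uF := altOn_mono R_le uR
  have u2 := d2_sq nd
  have u4 := card_d2 nd
  have ubr : d2 e1 e2 e3 e4 ∈ ⁅CA (em x zz), CA (em x zz)⁆ := by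
    rw [d2_br nd]
    exact commutator_mem_commutator
      (alt_CA (c3_mem_altOn (R_le r2) (R_le r3) (R_le r4') n4 n6))
      (alt_CA (d2_mem (nodup4.2 ⟨n2, n1, n3, n4.symm, n6, n5⟩) (R_le r1) (R_le r3) (R_le r2)
        (R_le r4')))
  obtain ⟨u, hu⟩ : ∃ u, u = d2 e1 e2 e3 e4 := ⟨_, rfl⟩
  rw [← hu] at uR uF u2 u4 ubr
  have emR : ∀ m, em x m ∈ symOn (R x)ᶜ := fun m s hs =>
    em_of_not x m (offR s (by simpa using hs))
  have cardR : ∀ m, (em x m * u).support.card = m.support.card + 4 := fun m => by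
    rw [card_mul (X := (R x)ᶜ) (emR m) (by rw [compl_compl]; exact uR.1), card_em, u4]
  have u'F := f_alt d e h uF
  have u'2 : φ u * φ u = 1 := by rw [← h.tw.1.mul _ (alt_CA uF) _ (alt_CA uF), u2, f_one h]
  have u'4 : (φ u).support.card = 4 := by
    obtain ⟨k, k1, k2⟩ := inv_card u'2
    have k3 : (φ u).support.card ≠ 0 := card_pos fun q => by
      rw [h.tw.1.inj _ (alt_CA uF) u2 q] at u4
      simp at u4
    have k4 := card_le u'F.1
    have s : sign (φ u) = 1 := u'F.2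
    rw [s] at k2
    have : k = 1 ∨ k = 2 ∨ k = 3 := by omega
    rcases this with rfl | rfl | rfl
    · exact absurd k2 (by decide)
    · exact k1
    · exact absurd k2 (by decide)
  have z8 : zz.support.card = 8 := by decide
  have n12 : ¬ T 12 := by
    have := h.tw.1.cl _ (alt_CA uF) u2 u'F.2
    rw [cardR, z8, u'4] at this
    rcases this with ⟨-, k⟩ | ⟨-, k, -⟩
    exacts [fun t => h.n4 (k.1 t), k]
  have kk : ∀ i : Bool, (t4 * pw i zz) 8 = 8 ∧ (t4 * pw i zz) 9 = 9 ∧ sign (t4 * pw i zz) = -1 ∧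
      (t4 * pw i zz).support.card = if i then 6 else 2 := by decide
  obtain ⟨k8, k9, ks, kc⟩ := kk i
  have y2 : em x yy * em x yy = 1 := by rw [← map_mul, show yy * yy = 1 by decide, map_one]
  have sy : sign (φ (em x yy)) = 1 := by rw [ey, map_mul, sign_em, ks, so]; rfl
  have zy : (zz * yy).support.card = 8 := by decide
  have cy := h.tw.1.cl _ yCA y2 sy
  rw [← map_mul, card_em, zy] at cy
  obtain ⟨iy, ty⟩ := cy.resolve_right fun k => k.2.1 h.y8
  replace ty := ty.1 h.y8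
  rw [ey, card_mul (em_mem k8 k9) hσ, card_em, kc, σ6] at ty
  obtain rfl : i = false := by
    cases i
    · rfl
    · exact absurd ty n12
  have e4' : t4 * pw false zz = t4 := mul_one _
  rw [e4'] at ey
  have yu : Commute (em x yy) u :=
    commute_of_mem_symOn (X := (R x)ᶜ) disjoint_compl_left (emR _) uR.1
  have σu : σ * φ u = φ u * σ := by
    have := f_s0 d e h (i := false) (by rw [e4', ey]) uF
    rw [(s0_comm uR.1).eq, mul_inv_cancel_right, eq_mul_inv_iff_mul_eq] at this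
    exact this.symm
  have τF : σ * φ u ∈ symOn (em x zz).supportᶜ := mul_mem hσ u'F.1
  have τ2 : σ * φ u * (σ * φ u) = 1 := by
    rw [mul_assoc, ← mul_assoc (φ u), ← σu, mul_assoc, u'2, mul_one, σ2]
  have su : sign (φ u) = 1 := u'F.2
  have τs : sign (σ * φ u) = -1 := by rw [map_mul, so, su, mul_one]
  have eyu : φ (em x yy * u) = em x t4 * (σ * φ u) := by
    rw [h.tw.1.mul _ yCA _ (alt_CA uF), ey, mul_assoc]
  have τc : (σ * φ u).support.card = 2 := by
    have c := h.tw.1.cl _ (mul_mem yCA (alt_CA uF))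
      (by rw [← pow_two, yu.mul_pow, pow_two, pow_two, y2, u2, one_mul])
      (by rw [h.tw.1.mul _ yCA _ (alt_CA uF), map_mul, sy, su, one_mul])
    rw [← mul_assoc, ← map_mul, cardR, zy, eyu, card_mul (em_mem rfl rfl) τF, card_em,
      show t4.support.card = 2 by decide] at c
    have nt : ¬ T (2 + (σ * φ u).support.card) := by
      rcases c with ⟨-, k⟩ | ⟨-, -, k⟩
      exacts [fun t => n12 (k.2 t), k]
    obtain ⟨k, k1, k2⟩ := inv_card τ2
    have k4 := card_le τF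
    rw [τs] at k2
    have : k = 0 ∨ k = 1 ∨ k = 2 ∨ k = 3 := by omega
    rcases this with rfl | rfl | rfl | rfl
    · exact absurd k2 (by decide)
    · exact k1
    · exact absurd k2 (by decide)
    · rw [k1] at nt
      exact absurd h.y8 nt
  obtain ⟨g1, g2, g12, eτ⟩ := Equiv.Perm.card_support_eq_two.1 τc
  obtain ⟨a1, a2, a3, a4, nd', eu, su'⟩ := exists_d2 u'2 u'4
  have eσ : σ = swap g1 g2 * φ u := by rw [← eτ, mul_assoc, u'2, mul_one]
  have dj : Disjoint ({g1, g2} : Finset α) {a1, a2, a3, a4} := by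
    have l := Finset.card_le_card (Equiv.Perm.support_mul_le (swap g1 g2) (φ u))
    rw [← eσ, σ6, Equiv.Perm.support_swap g12, su', Finset.sup_eq_union] at l
    rw [← Finset.card_union_eq_card_add_card]
    refine le_antisymm (Finset.card_union_le _ _) ?_
    rw [← su', u'4, Finset.card_pair g12, su']
    exact l
  simp only [Finset.disjoint_insert_left, Finset.disjoint_singleton_left, Finset.mem_insert,
    Finset.mem_singleton, not_or] at dj
  obtain ⟨m1, m2, m3, m4, m5, m6⟩ := nodup4.1 nd'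
  have aF : ∀ s ∈ ({a1, a2, a3, a4} : Finset α), s ∈ (em x zz).supportᶜ := fun s hs =>
    mem_symOn_iff_support.1 u'F.1 (su' ▸ hs)
  have g1F := moved τF (s := g1) (by rw [eτ, Equiv.swap_apply_left]; exact g12.symm)
  have g2F := moved τF (s := g2) (by rw [eτ, Equiv.swap_apply_right]; exact g12)
  have n := x89 (x := x)
  obtain ⟨a, ha, k⟩ := exists_symOn (em x zz).supportᶜ (f := ![g1, g2, a1, a2, a3, a4])
    (g := ![x 8, x 9, e1, e2, e3, e4])
    (List.nodup_ofFn.1 (by simp [*]))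
    (List.nodup_ofFn.1 (by simp [n, n1, n2, n3, n4, n5, n6, offR _ r1, offR _ r2, offR _ r3,
      offR _ r4']))
    (fun i => by
      fin_cases i
      exacts [g1F, g2F, aF a1 (by simp), aF a2 (by simp), aF a3 (by simp), aF a4 (by simp)])
    (fun i => by
      fin_cases i
      exacts [x8F, x9F, R_le r1, R_le r2, R_le r3, R_le r4'])
  have q0 : a g1 = x 8 := k 0
  have q1 : a g2 = x 9 := k 1
  have q2 : a a1 = e1 := k 2
  have q3 : a a2 = e2 := k 3
  have q4 : a a3 = e3 := k 4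
  have q5 : a a4 = e4 := k 5
  have au : a * φ u * a⁻¹ = u := by rw [eu, d2_conj, q2, q3, q4, q5, hu]
  have aσ : a * σ * a⁻¹ = em x s0 * u := by
    rw [eσ, ← conj_mul, au, ← Equiv.swap_apply_apply, q0, q1, em_s0]
  obtain ⟨a', ha', k'⟩ := even_of n x8F x9F ha
  have c0 : Commute (swap (x 8) (x 9)) u := em_s0 (x := x) ▸ s0_comm uR.1
  refine ⟨iy, a', ha', n12, e1, e2, e3, e4,
    ⟨nd, fun j => ⟨offR _ r1 j, offR _ r2 j, offR _ r3 j, offR _ r4' j⟩⟩, ?_, ?_, ?_⟩
  · rw [← hu, ey, conj_em rfl rfl ha'.1,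
      k' _ _ (Commute.mul_right (em_s0 (x := x) ▸ Commute.refl _) c0) aσ, yy, map_mul, mul_assoc]
  · rw [← hu]
    exact k' _ _ c0 au
  · rw [← hu]
    exact h.tw.1.inv _ ubr u2

theorem p4f (nat : NatStmt) (d : P4dStmt) (e : P4eStmt) : P4fStmt := by
  intro α _ _ x φ φ' T h hn h11
  obtain ⟨i, σ, hσ, σ2, ey, sw⟩ := (e α x φ φ' T h).2.2
  rcases sig nat d e h hn h11 hσ σ2 ey with s | ⟨r4, σ6, so⟩
  · obtain ⟨rfl, iy⟩ := sw s
    obtain ⟨a, ha, k⟩ := swap_case hσ s
    refine ⟨iy, a, ha, Or.inl ?_⟩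
    rw [ey, conj_em (by decide) (by decide) ha.1, k, ← map_mul]
    exact congrArg (em x) (by decide)
  · obtain ⟨iy, a, ha, k⟩ := six d e h hσ σ2 ey r4 σ6 so
    exact ⟨iy, a, ha, Or.inr k⟩

end Cfsg.Agent.H65.AnP4f
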