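import Cfsg.Agent.H63.AnDefs2

/-!
# AN-P4F: permutation lemmas
-/

set_option autoImplicit false
set_option linter.unusedSectionVars false

namespace Cfsg.Agent.H65.AnP4f

open Cfsg Cfsg.Agent.H63.AN Subgroup
open Cfsg.Agent.H7.AA (d2 nodup4 d2_conj sign_d2 fix_of_comm_c3)
open Cfsg.Agent.H78
open Equiv (swap Perm)
open Equiv.Perm (sign)
open scoped commutatorElement

variable {α : Type} [Fintype α] [DecidableEq α]

theorem prime_card {p : Perm α} {r : ℕ} (hr : r.Prime) (hp : p ^ r = 1) :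
    ∃ k, p.support.card = r * k ∧ sign p = (-1) ^ (r * k + k) := by
  have : Fact r.Prime := ⟨hr⟩
  have h := Equiv.Perm.cycleType_of_pow_prime_eq_one hp
  have hs : p.cycleType.sum = r * p.cycleType.card := by
    conv_lhs => rw [h]
    rw [Multiset.sum_replicate, smul_eq_mul, mul_comm]
  exact ⟨p.cycleType.card, by rw [← Equiv.Perm.sum_cycleType, hs],
    by rw [Equiv.Perm.sign_of_cycleType, hs]⟩

theorem inv_card {p : Perm α} (hp : p * p = 1) :
    ∃ k, p.support.card = 2 * k ∧ sign p = (-1) ^ k := by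
  obtain ⟨k, h1, h2⟩ := prime_card Nat.prime_two (by rw [pow_two, hp])
  exact ⟨k, h1, by rw [h2, pow_add, pow_mul]; simp⟩

theorem card_pos {p : Perm α} (hp : p ≠ 1) : p.support.card ≠ 0 := fun h =>
  hp (Equiv.Perm.card_support_eq_zero.1 h)

theorem card_le {X : Finset α} {p : Perm α} (hp : p ∈ symOn X) : p.support.card ≤ X.card :=
  Finset.card_le_card (mem_symOn_iff_support.1 hp)

theorem eq_one_of_both {X : Finset α} {p : Perm α} (h1 : p ∈ symOn X) (h2 : p ∈ symOn Xᶜ) :
    p = 1 := by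
  ext e
  by_cases h : e ∈ X
  · exact h2 e (by simpa using h)
  · exact h1 e h

theorem card_mul {X : Finset α} {p q : Perm α} (h1 : p ∈ symOn X) (h2 : q ∈ symOn Xᶜ) :
    (p * q).support.card = p.support.card + q.support.card := by
  refine Equiv.Perm.Disjoint.card_support_mul fun e => ?_
  by_cases h : e ∈ X
  · exact Or.inr (h2 e (by simpa using h))
  · exact Or.inl (h1 e h)

theorem exists_symOn {ι : Type} [Finite ι] (X : Finset α) {f g : ι → α} (hf : Function.Injective f)
    (hg : Function.Injective g) (fX : ∀ i, f i ∈ X) (gX : ∀ i, g i ∈ X) :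
    ∃ a ∈ symOn X, ∀ i, a (f i) = g i := by
  have key : ∀ {f : ι → α}, Function.Injective f → (∀ i, f i ∈ X) →
      Function.Injective (Sum.elim f (Subtype.val : {e // e ∉ X} → α)) := fun hf fX =>
    hf.sumElim Subtype.val_injective fun i e h => e.2 (h ▸ fX i)
  obtain ⟨a, ha⟩ := Equiv.Perm.exists_extending_pair _ _ (key hf fX) (key hg gX)
  exact ⟨a, fun e he => ha (Sum.inr ⟨e, he⟩), fun i => ha (Sum.inl i)⟩

theorem simple_altOn {X : Finset α} (h : 5 ≤ X.card) : IsSimpleGroup (altOn X) := by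
  have e : altOn X = (alternatingGroup X).map (Equiv.Perm.ofSubtype : Perm X →* Perm α) := by
    rw [alternatingGroup.map_ofSubtype]
    ext σ
    rw [Subgroup.mem_inf, Equiv.Perm.mem_range_ofSubtype_iff, altOn, Subgroup.mem_inf,
      mem_symOn_iff_support]
    rfl
  rw [e]
  have : IsSimpleGroup (alternatingGroup X) := alternatingGroup.isSimpleGroup (by simpa using h)
  exact (equivMapOfInjective _ _ Equiv.Perm.ofSubtype_injective).symm.isSimpleGroup

/-- an involution inverting an element of order three on at most four points -/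
theorem swap_of_small {X : Finset α} (hX : X.card ≤ 4) {σ b : Perm α} (hσ : σ ∈ symOn X)
    (σ2 : σ * σ = 1) (σ1 : σ ≠ 1) (hb : b ∈ symOn X) (b3 : b ^ 3 = 1) (b1 : b ≠ 1)
    (e : σ * b * σ⁻¹ = b⁻¹) : σ.IsSwap := by
  obtain ⟨k, hk, -⟩ := prime_card Nat.prime_three b3
  have h1 := card_le hb
  have h2 := card_pos b1
  have h3 : b.IsThreeCycle := card_support_eq_three_iff.1 (by omega)
  obtain ⟨u, v, w, uv, uw, vw, rfl⟩ := IsThreeCycle.exists_eq_c3 h3
  rw [c3_conj, c3_inv uv uw vw] at e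
  have mv : ∀ s, c3 u w v s ≠ s → s = u ∨ s = w ∨ s = v := fun s hs => by
    by_contra hn
    push Not at hn
    exact hs (c3_apply_of_ne hn.1 hn.2.1 hn.2.2)
  have i := σ.injective
  have m1 := mv (σ u) (by
    rw [← e, c3_apply_fst (i.ne uv) (i.ne uw)]; exact (i.ne uv).symm)
  have m2 := mv (σ v) (by
    rw [← e, c3_apply_snd (i.ne uw) (i.ne vw)]; exact (i.ne vw).symm)
  have m3 := mv (σ w) (by
    rw [← e, c3_apply_thd]; exact i.ne uw)
  have s2 : ∀ s, σ (σ s) = s := fun s => DFunLike.congr_fun σ2 s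
  have inX : ∀ s, c3 u v w s ≠ s → s ∈ X := fun s hs => by
    by_contra hn
    exact hs (hb s hn)
  have uX := inX u (by rw [c3_apply_fst uv uw]; exact uv.symm)
  have vX := inX v (by rw [c3_apply_snd uw vw]; exact vw.symm)
  have wX := inX w (by rw [c3_apply_thd]; exact uw)
  obtain ⟨s, sX, hs⟩ : ∃ s ∈ X, σ s = s := by
    have a1 := s2 u
    have a2 := s2 v
    have a3 := s2 w
    by_cases f1 : σ u = u
    · exact ⟨u, uX, f1⟩
    by_cases f2 : σ v = v
    · exact ⟨v, vX, f2⟩
    exact ⟨w, wX, by grind⟩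
  have h4 : σ ∈ symOn (X.erase s) := fun y hy => by
    by_cases q : y = s
    · rw [q, hs]
    · exact hσ y fun m => hy (Finset.mem_erase.2 ⟨q, m⟩)
  have h5 := card_le h4
  rw [Finset.card_erase_of_mem sX] at h5
  obtain ⟨l, hl, -⟩ := inv_card σ2
  have h6 := card_pos σ1
  exact Equiv.Perm.card_support_eq_two.1 (by omega)

/-- an involution moving four points -/
theorem exists_d2 {p : Perm α} (p2 : p * p = 1) (h : p.support.card = 4) :
    ∃ a b c d, [a, b, c, d].Nodup ∧ p = d2 a b c d ∧ p.support = {a, b, c, d} := by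
  have s2 : ∀ s, p (p s) = s := fun s => DFunLike.congr_fun p2 s
  obtain ⟨a, ha⟩ : p.support.Nonempty := Finset.card_pos.1 (by omega)
  obtain ⟨c, hc⟩ : (p.support \ {a, p a}).Nonempty := by
    refine Finset.card_pos.1 ?_
    have := Finset.le_card_sdiff {a, p a} p.support
    have := Finset.card_le_two (a := a) (b := p a)
    omega
  simp only [Finset.mem_sdiff, Finset.mem_insert, Finset.mem_singleton, not_or,
    Equiv.Perm.mem_support] at hc ha
  have nd : [a, p a, c, p c].Nodup := nodup4.2 (by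
    have := s2 a
    have := s2 c
    grind)
  have hs : p.support = {a, p a, c, p c} := by
    refine (Finset.eq_of_subset_of_card_le ?_ ?_).symm
    · intro s hs
      simp only [Finset.mem_insert, Finset.mem_singleton] at hs
      rcases hs with rfl | rfl | rfl | rfl <;> simp [ha, hc.1]
    · rw [h]
      exact (List.toFinset_card_of_nodup nd).ge.trans (by simp)
  refine ⟨a, p a, c, p c, nd, ?_, hs⟩
  obtain ⟨n1, n2, n3, n4, n5, n6⟩ := nodup4.1 nd
  ext s
  have a1 := s2 a
  have a2 := s2 c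
  by_cases m : s ∈ p.support
  · rw [hs] at m
    simp only [Finset.mem_insert, Finset.mem_singleton] at m
    simp only [H7.AA.d2_apply, Equiv.swap_apply_def]
    grind
  · have m' := Equiv.Perm.notMem_support.1 m
    rw [hs] at m
    simp only [Finset.mem_insert, Finset.mem_singleton, not_or] at m
    simp only [H7.AA.d2_apply, Equiv.swap_apply_def]
    grind

theorem d2_sq {a b c d : α} (h : [a, b, c, d].Nodup) : d2 a b c d * d2 a b c d = 1 := by
  obtain ⟨n1, n2, n3, n4, n5, n6⟩ := nodup4.1 h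
  ext s
  simp only [Equiv.Perm.mul_apply, H7.AA.d2_apply, Equiv.swap_apply_def, Equiv.Perm.one_apply]
  grind

theorem d2_br {a b c d : α} (h : [a, b, c, d].Nodup) :
    d2 a b c d = ⁅c3 b c d, d2 a c b d⁆ := by
  obtain ⟨n1, n2, n3, n4, n5, n6⟩ := nodup4.1 h
  rw [commutatorElement_def, d2_conj, eq_mul_inv_iff_mul_eq, c3_apply_fst n4 n5,
    c3_apply_snd n5 n6, c3_apply_thd, c3_apply_of_ne n1 n2 n3]
  ext s
  simp only [Equiv.Perm.mul_apply, H7.AA.d2_apply, Equiv.swap_apply_def]
  grind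

theorem d2_mem {X : Finset α} {a b c d : α} (h : [a, b, c, d].Nodup) (ha : a ∈ X) (hb : b ∈ X)
    (hc : c ∈ X) (hd : d ∈ X) : d2 a b c d ∈ altOn X :=
  ⟨mul_mem (swap_mem_symOn ha hb) (swap_mem_symOn hc hd),
    sign_d2 (nodup4.1 h).1 (nodup4.1 h).2.2.2.2.2⟩

theorem card_d2 {a b c d : α} (h : [a, b, c, d].Nodup) : (d2 a b c d).support.card = 4 := by
  obtain ⟨n1, n2, n3, n4, n5, n6⟩ := nodup4.1 h
  rw [d2, Equiv.Perm.Disjoint.card_support_mul, Equiv.Perm.card_support_swap n1,
    Equiv.Perm.card_support_swap n6]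
  intro s
  simp only [Equiv.swap_apply_def]
  grind

theorem conj_mem {X : Finset α} {g σ : Perm α} (hg : g ∈ symOn X)
    (hσ : σ ∈ altOn X) : g * σ * g⁻¹ ∈ altOn X :=
  ⟨(symOn X).mul_mem ((symOn X).mul_mem hg hσ.1) ((symOn X).inv_mem hg), (alternatingGroup.normal).conj_mem σ hσ.2 g⟩

/-- make a conjugating element even -/
theorem even_of {X : Finset α} {u v : α} (uv : u ≠ v) (hu : u ∈ X) (hv : v ∈ X) {a : Perm α}
    (ha : a ∈ symOn X) : ∃ a' ∈ altOn X, ∀ p q : Perm α, Commute (swap u v) q →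
      a * p * a⁻¹ = q → a' * p * a'⁻¹ = q := by
  rcases Int.units_eq_one_or (sign a) with h | h
  · exact ⟨a, ⟨ha, h⟩, fun _ _ _ e => e⟩
  · refine ⟨swap u v * a, ⟨mul_mem (swap_mem_symOn hu hv) ha, ?_⟩, fun p q c e => ?_⟩
    · change sign (swap u v * a) = 1
      rw [map_mul, h, Equiv.Perm.sign_swap uv]; rfl
    · calc swap u v * a * p * (swap u v * a)⁻¹ = swap u v * (a * p * a⁻¹) * (swap u v)⁻¹ := by group
        _ = q := by rw [e, c.eq, mul_inv_cancel_right]

end Cfsg.Agent.H65.AnP4f
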