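import Mathlib
import Cfsg.Agent.H62.EVCongr
import Cfsg.Agent.H22.EvRaw0

/-!
Abstract lemmas on involutory automorphisms: the order of the fixed subgroup and of its components from a
lift to a central extension, and the passage from conjugacy under a larger group to inner conjugacy.
-/

set_option autoImplicit false
set_option linter.unusedSectionVars false

namespace Cfsg.Agent.H65.EvL

open Cfsg Subgroup H62.EV
open scoped commutatorElement

variable {H T : Type*} [Group H] [Group T]

/-- Order data of the fixed subgroup of `x`. -/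
structure Fx (x : MulAut T) (n : ℕ) : Prop where
  dvd : Nat.card (fixedSubgroup x) ∣ n
  comp : ∀ L, IsComponentOf L (fixedSubgroup x) → n ∣ 3 * Nat.card L

/-- Every involution fixed by `x` is a coboundary. -/
def CobAll (x : MulAut T) : Prop := ∀ a ∈ fixedSubgroup x, a * a = 1 → Cob x a

theorem Fx.conj {x : MulAut T} {n : ℕ} (h : Fx x n) (γ : MulAut T) : Fx (γ * x * γ⁻¹) n := by
  rw [← cg_aut]
  refine ⟨?_, fun L hL => ?_⟩
  · rw [fixed_cg, card_map_of_injective γ.injective]; exact h.dvd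
  · have := h.comp _ (by simpa only [cg_symm'] using comp_cg γ.symm hL)
    rwa [card_map_of_injective γ.symm.injective] at this

theorem CobAll.conj {x : MulAut T} (h : CobAll x) (γ : MulAut T) : CobAll (γ * x * γ⁻¹) := by
  rw [← cg_aut]
  intro a ha h2
  obtain ⟨a, rfl⟩ := γ.surjective a
  rw [fixed_cg, mem_emap] at ha
  exact (h a ha (γ.injective (by rw [map_mul, h2, map_one]))).cg γ

theorem fx_of_lift [Finite H] (π : H →* T) (hs : Function.Surjective π) (hc : π.ker ≤ center H)
    (h3 : Nat.card π.ker ∣ 3) (x : MulAut T) (τ : H →* H) (hτ : ∀ h, π (τ h) = x (π h))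
    (K : Subgroup H) (hK : ∀ h, h ∈ K ↔ τ h = h) (hq : IsQuasisimple K ∨ Group.IsSolvable K) :
    Fx x (Nat.card K) := by
  have : Finite T := Finite.of_surjective π hs
  set C := (fixedSubgroup x).comap π with hC
  have hz : ∀ g ∈ C, τ g * g⁻¹ ∈ π.ker := fun g hg => by
    rw [MonoidHom.mem_ker, map_mul, hτ, show x (π g) = π g from hg, map_inv, mul_inv_cancel]
  have hzc : ∀ g ∈ C, ∀ y, y * (τ g * g⁻¹) = τ g * g⁻¹ * y := fun g hg y =>
    mem_center_iff.1 (hc (hz g hg)) y
  have hKC : K ≤ C := fun g hg => by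
    change x (π g) = π g
    rw [← hτ, (hK g).1 hg]
  have hM : K.map π ≤ fixedSubgroup x := map_le_iff_le_comap.2 hKC
  refine ⟨?_, fun L hL => ?_⟩
  · let δ : C →* π.ker := MonoidHom.mk' (fun g => ⟨τ g * (g : H)⁻¹, hz g g.2⟩) fun a b => by
      apply Subtype.ext
      change τ (a * b) * ((a : H) * b)⁻¹ = τ a * (a : H)⁻¹ * (τ b * (b : H)⁻¹)
      rw [mul_assoc (τ a), hzc b b.2, map_mul]; group
    have hk : δ.ker = K.subgroupOf C := by
      ext g
      rw [MonoidHom.mem_ker, mem_subgroupOf, hK, Subtype.ext_iff]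
      exact mul_inv_eq_one
    have h1 : K.relIndex C ∣ Nat.card π.ker := by
      rw [relIndex, ← hk, index_ker]; exact card_subgroup_dvd_card _
    obtain ⟨w, hw⟩ := h1
    have h2 := relIndex_mul_index hKC
    have h4 : C.index = (fixedSubgroup x).index := index_comap_of_surjective _ hs
    have h5 := K.card_mul_index
    have h6 := (fixedSubgroup x).card_mul_index
    have h7 := π.ker.card_mul_index
    rw [index_ker, MonoidHom.range_eq_top.2 hs, card_top] at h7
    have p1 : 0 < K.relIndex C * C.index := by rw [h2]; exact Nat.pos_of_ne_zero index_ne_zero_of_finite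
    refine ⟨w, Nat.eq_of_mul_eq_mul_right p1 ?_⟩
    rw [h2, h5, ← h7, hw, ← h6, ← h2, h4]; ring
  · have hq' : IsQuasisimple L := H52.IsQuasisimple.of_mulEquiv hL.2.2 (subgroupOfEquivOfLe hL.1)
    have hLM : L ≤ K.map π := by
      rw [← H52.IsQuasisimple.commutator_self hq', commutator_le]
      intro a ha b hb
      obtain ⟨a, rfl⟩ := hs a
      obtain ⟨b, rfl⟩ := hs b
      refine ⟨⁅a, b⁆, (hK _).2 ?_, map_commutatorElement _ _ _⟩
      have ea := hzc a (hL.1 ha)
      have eb := hzc b (hL.1 hb)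
      obtain ⟨z, hz1⟩ : ∃ z, z = τ a * a⁻¹ := ⟨_, rfl⟩
      obtain ⟨w, hw1⟩ : ∃ w, w = τ b * b⁻¹ := ⟨_, rfl⟩
      rw [← hz1] at ea
      rw [← hw1] at eb
      rw [map_commutatorElement, show τ a = z * a by rw [hz1]; group, show τ b = w * b by rw [hw1]; group,
        commutatorElement_def, commutatorElement_def]
      calc z * a * (w * b) * (z * a)⁻¹ * (w * b)⁻¹ = z * ((a * w) * b * a⁻¹ * z⁻¹ * b⁻¹ * w⁻¹) := by group
        _ = z * (w * (a * b * a⁻¹ * z⁻¹ * b⁻¹) * w⁻¹) := by rw [eb]; group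
        _ = z * (a * b * a⁻¹) * z⁻¹ * b⁻¹ := by rw [← eb]; group
        _ = a * b * a⁻¹ * b⁻¹ := by rw [← ea]; group
    rcases hq with hq | hq
    · have hne : K.map π ≠ ⊥ := fun h => H52.IsQuasisimple.ne_bot hq' (le_bot_iff.1 (h ▸ hLM))
      have hqM := H52.IsQuasisimple.map hq π hne
      have hc' := H52.IsComponent.subgroupOf_of_le hLM hM hL.2
      rcases H52.IsQuasisimple.subnormal_eq_top_or_le_center hqM hc'.1 with h | h
      · have hLe : L = K.map π := le_antisymm hLM (subgroupOf_eq_top.1 h)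
        have h1 := (π.domRestrict K).ker.card_mul_index
        rw [index_ker, MonoidHom.domRestrict_range, ← hLe, MonoidHom.ker_domRestrict] at h1
        rw [← h1]
        refine Nat.mul_dvd_mul_right (Dvd.dvd.trans ?_ h3) _
        rw [← inf_subgroupOf_right, Nat.card_congr (subgroupOfEquivOfLe inf_le_right).toEquiv]
        exact card_dvd_of_le inf_le_left
      · refine absurd (fun a ha => ?_) (H52.IsQuasisimple.not_le_centralizer hq')
        rw [mem_centralizer_iff]
        intro b hb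
        exact congrArg Subtype.val (mem_center_iff.1 (h (show (⟨a, hLM ha⟩ : K.map π) ∈ _ from ha)) ⟨b, hLM hb⟩)
    · have : Group.IsSolvable (K.map π) := Group.isSolvable_of_surjective (π.subgroupMap_surjective K)
      exact absurd hLM (H52.IsQuasisimple.not_le_of_isSolvable hq' this)

theorem cobAll_of (hZ : center T = ⊥) {x : MulAut T} (hx : x * x = 1)
    (h : ∀ a : T, (MulAut.conj a * x) ^ 2 = 1 → ∃ g m, MulAut.conj a * x = g * x * g⁻¹ ∧ g * m⁻¹ ∈ Inn T ∧
      m ^ 3 ∈ Inn T ∧ m * (x * m * x⁻¹) = x * m * x⁻¹ * m) : CobAll x := by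
  intro a ha h2
  obtain ⟨g, m, e, h1, h3, h4⟩ := h a (by
    rw [sq, mul_assoc, ← mul_assoc x, ← H22.EvRaw.conj_mul_of_fixed ha, mul_assoc, hx, mul_one, ← map_mul, h2,
      map_one])
  let f := QuotientGroup.mk' (Inn T)
  have kf : ∀ y, y ∈ Inn T ↔ f y = 1 := fun y => (QuotientGroup.eq_one_iff y).symm
  have f1 : f g = f m := by rw [kf, map_mul, map_inv, mul_inv_eq_one] at h1; exact h1
  have f3 : f m ^ 3 = 1 := by rw [← map_pow, ← kf]; exact h3
  have f2 : f x * f m * (f x)⁻¹ = f m := by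
    have := congrArg f e
    rw [map_mul, (kf _).1 ⟨a, rfl⟩, one_mul, map_mul, map_mul, map_inv, f1] at this
    rw [mul_inv_eq_iff_eq_mul]
    conv_lhs => rw [this]
    group
  obtain ⟨d, hd⟩ : ∃ d, d = m * (x * m * x⁻¹) := ⟨_, rfl⟩
  have c1 : x * d * x⁻¹ = d := by
    calc x * d * x⁻¹ = x * m * x⁻¹ * ((x * x) * m * (x * x)⁻¹) := by rw [hd]; group
      _ = d := by rw [hx, one_mul, inv_one, mul_one, hd, h4]
  refine H22.EvRaw.cob_of_conj hZ h2 (h := g * (d * d)⁻¹) ?_ ?_
  · rw [kf, map_mul, map_inv, mul_inv_eq_one, hd, map_mul, map_mul, map_mul, map_mul, map_inv, f2, f1]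
    calc f m = f m ^ 3 * f m := by rw [f3, one_mul]
      _ = _ := by rw [pow_succ, sq]; group
  · rw [e]
    calc g * x * g⁻¹ = g * (d⁻¹ * d⁻¹ * (x * d * x⁻¹) * (x * d * x⁻¹) * x) * g⁻¹ := by rw [c1]; group
      _ = _ := by simp only [mul_inv_rev, mul_assoc, inv_inv, inv_mul_cancel_left, inv_mul_cancel, mul_one]

end Cfsg.Agent.H65.EvL
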