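import Cfsg.Agent.H97.JmDefs

/-!
# Maximal subgroups of the fourth Janko group: piece EB
-/

set_option autoImplicit false

namespace Cfsg.Agent.H97.JM

open Subgroup

universe u

namespace EB

theorem cent_le_norm {G : Type u} [Group G] [Finite G] (a : G) :
    centralizer ({a} : Set G) ≤ normalizer ((zpowers a : Subgroup G) : Set G) := fun c hc => by
  refine mem_normalizer_fintype (S := ((zpowers a : Subgroup G) : Set G)) ?_
  rintro _ ⟨k, rfl⟩
  have h : Commute c a := mem_centralizer_singleton_iff.mp hc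
  have h2 : c * a ^ k * c⁻¹ = a ^ k := by
    rw [(h.zpow_right k).eq, mul_inv_cancel_right]
  change c * a ^ k * c⁻¹ ∈ zpowers a
  rw [h2]
  exact zpow_mem (mem_zpowers a) k

theorem norm_inf {G : Type u} [Group G] {A B : Subgroup G} {g : G} (hA : g ∈ A)
    (hB : g ∈ normalizer (B : Set G)) : g ∈ normalizer ((A ⊓ B : Subgroup G) : Set G) :=
  inf_normalizer_le_normalizer_inf ⟨le_normalizer hA, hB⟩

theorem two_pow {a : ℕ} (h : a ≤ 13) (h8 : 2 ^ a % 11 = 8) : a = 3 ∨ a = 13 := by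
  interval_cases a <;> simp_all

end EB

theorem pEB (hCONG : CONG.{u}) (hFIX : FIX.{u}) : EB.{u} := by
  intro G _ _ hG z x Q U hZ H hH
  have hN : normalizer ((zpowers x : Subgroup G) : Set G) ≤ H := hZ.nU ▸ hH
  have hxH : x ∈ H := hH (le_normalizer hZ.xU)
  have hxz : x ∈ centralizer ({z} : Set G) := mem_centralizer_singleton_iff.mpr hZ.xz
  have hC : centralizer ({x} : Set G) ≤ H := (EB.cent_le_norm x).trans hN
  constructor
  · have h1 : Nat.card ↥(H ⊓ centralizer ({z} : Set G)) ∣ 21799895040 :=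
      hZ.cz ▸ card_dvd_of_le inf_le_right
    obtain ⟨d, hd, -, hd2, hd3⟩ := hCONG G (H ⊓ centralizer ({z} : Set G)) 11 29040 x (by norm_num)
      ⟨hxH, hxz⟩ hZ.x11 (fun h => by have := h.trans h1; norm_num at this)
      (by rw [← hZ.nU, (hG.n11 U).2])
    have h2 : H ⊓ centralizer ({z} : Set G) ⊓ normalizer ((zpowers x : Subgroup G) : Set G) =
        centralizer ({z} : Set G) ⊓ normalizer ((zpowers x : Subgroup G) : Set G) := by
      rw [inf_assoc]
      exact inf_eq_right.mpr (inf_le_right.trans hN)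
    rw [h2, hZ.cN] at hd
    rw [← hd] at hd2 hd3
    obtain ⟨f, hf⟩ := hd2
    refine ⟨f, hf, ?_⟩
    rwa [hf, Nat.mul_div_cancel_left _ (by norm_num)] at hd3
  · have hxQ : x ∈ normalizer (Q : Set G) := hZ.Qn hxz
    have h1 := hFIX G Q 11 x (by norm_num) hZ.x11 hxQ
    have h2 := hFIX G (H ⊓ Q) 11 x (by norm_num) hZ.x11 (EB.norm_inf hxH hxQ)
    have h3 : H ⊓ Q ⊓ centralizer ({x} : Set G) = Q ⊓ centralizer ({x} : Set G) := by
      rw [inf_assoc]
      exact inf_eq_right.mpr (inf_le_right.trans hC)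
    rw [h3, ← h1, hZ.Qc] at h2
    have h4 : Nat.card ↥(Q ⊓ centralizer ({x} : Set G)) ∣ 264 :=
      hZ.cD ▸ card_dvd_of_le (inf_le_inf_right _ hZ.Qle)
    have h5 : Nat.card ↥(Q ⊓ centralizer ({x} : Set G)) ∣ 2 ^ 13 :=
      hZ.Qc ▸ card_dvd_of_le inf_le_left
    have h6 : Nat.card ↥(Q ⊓ centralizer ({x} : Set G)) ∣ 8 := by
      have := Nat.dvd_gcd h4 h5
      norm_num at this
      exact this
    have h7 : Nat.card ↥(Q ⊓ centralizer ({x} : Set G)) = 8 := by
      rw [hZ.Qc] at h1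
      have := Nat.le_of_dvd (by norm_num) h6
      omega
    have h8 : Nat.card ↥(H ⊓ Q) ∣ 2 ^ 13 := hZ.Qc ▸ card_dvd_of_le inf_le_right
    obtain ⟨a, ha, h9⟩ := (Nat.dvd_prime_pow Nat.prime_two).mp h8
    rw [h9] at h2
    rcases EB.two_pow ha (by rw [h2]; norm_num) with rfl | rfl
    · right
      refine ⟨h9, fun v hv hv2 => ?_⟩
      have h10 : Q ⊓ centralizer ({x} : Set G) = H ⊓ Q :=
        eq_of_le_of_card_ge (le_inf (inf_le_right.trans hC) inf_le_left) (by rw [h7, h9]; norm_num)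
      have hv' : v ∈ Q ⊓ centralizer ({x} : Set G) := h10 ▸ hv
      exact hZ.invD v hv2 (mem_centralizer_singleton_iff.mp (hZ.Qle hv'.1))
        (mem_centralizer_singleton_iff.mp hv'.2)
    · left
      have h10 : H ⊓ Q = Q := eq_of_le_of_card_ge inf_le_right (by rw [h9, hZ.Qc])
      exact h10 ▸ inf_le_left

end Cfsg.Agent.H97.JM
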