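import Cfsg.Agent.H18.RfSc
import Cfsg.Agent.H29.RfWcg

/-! Project RF, piece F2: an element of order seven normalizes no near offender. -/

set_option autoImplicit false
set_option maxRecDepth 100000
set_option maxHeartbeats 400000

namespace Cfsg.Agent.H65.RfF2

open Cfsg Subgroup Cfsg.Agent.H18.MaxOff Cfsg.Agent.H18.Rf MulAction
open Cfsg.Agent.H48 (IsWord)
open Cfsg.Agent.H42 hiding cj mem_cj card_cj
open Cfsg.Agent.H10.Co (Ob mem_Ob self_mem_Ob Ob_eq disj_Ob card_Ob sum_Ob sum_stab card_le_of_det)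
open scoped symmDiff Pointwise

universe u

theorem m_ext {g : M24} (h : ∀ p : GolayPt, g • p = p) : g = 1 := Subtype.ext (Equiv.ext h)

theorem inj7 {X : Type*} [MulAction M24 X] {σ : M24} (h7 : σ ^ 7 = 1) {x : X} (hx : σ • x ≠ x) :
    Set.InjOn (fun k : ℕ => σ ^ k • x) (Set.Iio 7) := by
  haveI : Fact (Nat.Prime 7) := ⟨by decide⟩
  have h1 : Function.minimalPeriod (σ • ·) x = 7 :=
    Function.minimalPeriod_eq_prime (by
      show (σ • ·)^[7] x = x
      rw [smul_iterate, h7]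
      exact one_smul _ _) hx
  have := Function.iterate_injOn_Iio_minimalPeriod (f := (σ • ·)) (x := x)
  rw [h1] at this
  simpa only [smul_iterate] using this

theorem orb_card (E : Subgroup M24) : (Finset.univ.image (Ob E)).card * Nat.card E =
    ∑ i : GolayPt, Nat.card (stabilizer E i) := by
  rw [← Finset.sum_fiberwise_of_maps_to (t := Finset.univ.image (Ob E)) (g := Ob E)
    fun i hi => Finset.mem_image_of_mem _ hi, ← smul_eq_mul, ← Finset.sum_const]
  refine Finset.sum_congr rfl fun o ho => ?_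
  obtain ⟨r, -, rfl⟩ := Finset.mem_image.1 ho
  rw [← sum_Ob (Y := E) r]
  refine Finset.sum_congr ?_ fun _ _ => rfl
  ext j
  simp only [Finset.mem_filter, Finset.mem_univ, true_and]
  exact ⟨fun h => Ob_eq h, fun h => h ▸ self_mem_Ob j⟩

theorem det {E : Subgroup M24} {T : Finset (Finset GolayPt)} (hT : ∀ c ∈ T, IsWord c)
    (h2 : ∀ y ∈ E, ∀ c ∈ T, y • c = c) (R : Finset GolayPt) (h : 12 ≤ (R.biUnion (Ob E)).card) :
    T.card ≤ 4 * 2 ^ R.card :=
  card_le_of_det T hT R _ h fun i hi => by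
    obtain ⟨r, hr, hi⟩ := Finset.mem_biUnion.1 hi
    obtain ⟨y, rfl⟩ := mem_Ob.1 hi
    refine ⟨r, hr, fun c hc => ?_⟩
    conv_lhs => rw [← h2 y y.2 c hc]
    exact Finset.smul_mem_smul_finset_iff _

theorem half {E : Subgroup M24} (h : (Finset.univ.image (Ob E)).card ≤ 10) :
    ∃ R : Finset GolayPt, R.card ≤ 5 ∧ 12 ≤ (R.biUnion (Ob E)).card := by
  have h1 : ∀ o : Finset GolayPt, ∃ r, o ∈ Finset.univ.image (Ob E) → Ob E r = o := fun o => by
    by_cases ho : o ∈ Finset.univ.image (Ob E)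
    · obtain ⟨r, -, e⟩ := Finset.mem_image.1 ho
      exact ⟨r, fun _ => e⟩
    · exact ⟨none, fun h => absurd h ho⟩
  choose rep hrep using h1
  obtain ⟨A, hA, cA⟩ := Finset.exists_subset_card_eq (s := Finset.univ.image (Ob E))
    (min_le_right 5 _)
  have h2 : (Finset.univ : Finset GolayPt) ⊆ (A.image rep).biUnion (Ob E) ∪
      ((Finset.univ.image (Ob E) \ A).image rep).biUnion (Ob E) := fun p hp => by
    have h3 := Finset.mem_image_of_mem (Ob E) hp
    have h4 : p ∈ Ob E (rep (Ob E p)) := by rw [hrep _ h3]; exact self_mem_Ob p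
    by_cases h5 : Ob E p ∈ A
    · exact Finset.mem_union_left _ (Finset.mem_biUnion.2 ⟨_, Finset.mem_image_of_mem _ h5, h4⟩)
    · exact Finset.mem_union_right _ (Finset.mem_biUnion.2
        ⟨_, Finset.mem_image_of_mem _ (Finset.mem_sdiff.2 ⟨h3, h5⟩), h4⟩)
  have h3 := (Finset.card_le_card h2).trans (Finset.card_union_le _ _)
  rw [Finset.card_univ, H48.card_golayPt] at h3
  have h4 := Finset.card_sdiff_of_subset hA
  by_cases h5 : 12 ≤ ((A.image rep).biUnion (Ob E)).card
  · exact ⟨_, Finset.card_image_le.trans (by omega), h5⟩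
  · exact ⟨(Finset.univ.image (Ob E) \ A).image rep, Finset.card_image_le.trans (by omega), by omega⟩

theorem fix_all {T : Finset (Finset GolayPt)} (hT : ∀ c ∈ T, IsWord c) (h32 : 32 ≤ T.card) {σ : M24}
    (h7 : σ ^ 7 = 1) (hσ : ∀ c ∈ T, σ • c = c) : σ = 1 := by
  classical
  by_contra h1
  haveI : Fact (Nat.Prime 7) := ⟨by decide⟩
  have hc : Nat.card (zpowers σ) = 7 := by rw [Nat.card_zpowers, orderOf_eq_prime h7 h1]
  have ho : ∀ i, σ • i ≠ i → (Ob (zpowers σ) i).card = 7 := fun i hi => by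
    have h2 := card_Ob (Y := zpowers σ) i
    rw [hc] at h2
    refine ((Nat.dvd_prime (by decide)).1 (Dvd.intro _ h2)).resolve_left fun h3 => hi ?_
    exact Finset.card_le_one.1 h3.le _ (mem_Ob.2 ⟨⟨σ, mem_zpowers σ⟩, rfl⟩) _ (self_mem_Ob i)
  obtain ⟨i, hi⟩ : ∃ i : GolayPt, σ • i ≠ i := by
    by_contra! h
    exact h1 (m_ext h)
  obtain ⟨j, hj, hj'⟩ : ∃ j : GolayPt, σ • j ≠ j ∧ j ∉ Ob (zpowers σ) i := by
    by_contra! h
    obtain ⟨c, hc, e⟩ := H48.exists_word_inter {i, σ • i} {i}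
      (Finset.card_le_two.trans (by norm_num)) (by simp)
    have h2 : (σ • c) ∆ c ⊆ Ob (zpowers σ) i := fun p hp => h p fun e => by
      have : σ • p ∈ σ • c ↔ p ∈ c := Finset.smul_mem_smul_finset_iff _
      rw [e] at this
      rw [Finset.mem_symmDiff] at hp
      tauto
    have h3 := Finset.card_le_card h2
    have h4 : σ • c = c := symmDiff_eq_bot.1
      ((IsWord.symmDiff ((msmul_mem_codeSets_iff σ).2 hc) hc).eq_empty_of_card_lt (by
        rw [ho i hi] at h3; omega))
    have h5 : i ∈ c := (Finset.mem_inter.1 (e.ge (Finset.mem_singleton_self i))).1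
    have h6 : σ • i ∈ c := h4 ▸ Finset.smul_mem_smul_finset h5
    exact hi (Finset.mem_singleton.1 (e.le (Finset.mem_inter.2 ⟨h6, by simp⟩)))
  have h2 := det (E := zpowers σ) hT (fun y hy c hc =>
    (zpowers_le.2 (show σ ∈ stabilizer M24 c from hσ c hc)) hy) {i, j} (by
      rw [Finset.biUnion_insert, Finset.singleton_biUnion,
        Finset.card_union_of_disjoint (disj_Ob hj'), ho i hi, ho j hj]
      norm_num)
  have := Nat.pow_le_pow_right two_pos (Finset.card_le_two (a := i) (b := j))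
  omega

theorem atoms {E : Subgroup M24} (hE : ∀ y ∈ E, y * y = 1) (h64 : Nat.card E = 64)
    {T : Finset (Finset GolayPt)} (h2 : ∀ y ∈ E, ∀ c ∈ T, y • c = c) {σ : M24} (h7 : σ ^ 7 = 1)
    (hσ : ∀ c ∈ T, σ • c ∈ T) : ∀ c ∈ T, σ • c = c := by
  classical
  let At : GolayPt → Finset GolayPt := fun i => Finset.univ.filter fun j => ∀ c ∈ T, (i ∈ c ↔ j ∈ c)
  have mA : ∀ i j, j ∈ At i ↔ ∀ c ∈ T, (i ∈ c ↔ j ∈ c) := fun i j => by simp [At]
  have self : ∀ i, i ∈ At i := fun i => (mA i i).2 fun _ _ => Iff.rfl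
  have eqA : ∀ i j, j ∈ At i → At j = At i := fun i j h => Finset.ext fun k => by
    rw [mA, mA]
    exact forall₂_congr fun c hc => by rw [(mA i j).1 h c hc]
  have hp : ∀ (k : ℕ), ∀ c ∈ T, σ ^ k • c ∈ T := fun k => by
    induction k with
    | zero => simp
    | succ k ih => exact fun c hc => by rw [pow_succ', mul_smul]; exact hσ _ (ih c hc)
  have hi : ∀ (k : ℕ), ∀ c ∈ T, (σ ^ k)⁻¹ • c ∈ T := fun k c hc => by
    have : (σ ^ k)⁻¹ = σ ^ (6 * k) := inv_eq_of_mul_eq_one_right (by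
      rw [← pow_add, show k + 6 * k = 7 * k by ring, pow_mul, h7, one_pow])
    rw [this]
    exact hp _ c hc
  have sA : ∀ (k : ℕ) i, σ ^ k • At i = At (σ ^ k • i) := fun k i => Finset.ext fun j => by
    rw [← Finset.inv_smul_mem_iff, mA, mA]
    constructor
    · intro h c hc
      rw [← Finset.mem_inv_smul_finset_iff, h _ (hi k c hc), Finset.smul_mem_smul_finset_iff]
    · intro h c hc
      rw [Finset.inv_smul_mem_iff, ← h _ (hp k c hc), Finset.smul_mem_smul_finset_iff]
  have ob : ∀ j, Ob E j ⊆ At j := fun j k hk => by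
    obtain ⟨y, rfl⟩ := mem_Ob.1 hk
    refine (mA _ _).2 fun c hc => ?_
    conv_rhs => rw [← h2 y y.2 c hc]
    exact (Finset.smul_mem_smul_finset_iff _).symm
  have key : ∀ i, σ • At i = At i := fun i => by
    by_contra hne
    have h3 := inj7 h7 hne
    let U := (Finset.range 7).biUnion fun k => σ ^ k • At i
    have cU : U.card = 7 * (At i).card := by
      rw [Finset.card_biUnion fun a ha b hb e => Finset.disjoint_left.2 fun p h4 h5 => e (h3
        (Finset.mem_range.1 ha) (Finset.mem_range.1 hb) (by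
          simp only [sA] at h4 h5 ⊢
          rw [← eqA _ _ h4, eqA _ _ h5]))]
      simp [Finset.card_smul_finset]
    have s1 : ∀ j ∈ U, 64 ≤ (At i).card * Nat.card (stabilizer E j) := fun j hj => by
      obtain ⟨k, -, hk⟩ := Finset.mem_biUnion.1 hj
      rw [← h64, ← card_Ob j, ← Finset.card_smul_finset (σ ^ k) (At i)]
      refine Nat.mul_le_mul_right _ (Finset.card_le_card ?_)
      rw [sA] at hk ⊢
      rw [← eqA _ _ hk]
      exact ob j
    have s2 : ∀ j ∈ Uᶜ, 64 ≤ Uᶜ.card * Nat.card (stabilizer E j) := fun j hj => by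
      rw [← h64, ← card_Ob j]
      refine Nat.mul_le_mul_right _ (Finset.card_le_card fun p hp => Finset.mem_compl.2 fun h4 => ?_)
      obtain ⟨k, h5, hk⟩ := Finset.mem_biUnion.1 h4
      refine Finset.mem_compl.1 hj (Finset.mem_biUnion.2 ⟨k, h5, ?_⟩)
      rw [sA] at hk ⊢
      rw [← eqA _ _ hk, eqA _ _ (ob j hp)]
      exact self j
    have t1 := orb_card E
    have t2 := sum_stab hE
    have t3 : ∑ j : GolayPt, Nat.card (stabilizer E j) ≤ 512 := by rw [h64] at t1 t2; omega
    rw [← Finset.sum_add_sum_compl U] at t3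
    have c1 : Uᶜ.card = 24 - U.card := by rw [Finset.card_compl, H48.card_golayPt]
    have c2 : U.card ≤ 24 := H48.card_golayPt ▸ Finset.card_le_univ U
    have c3 : 0 < (At i).card := Finset.card_pos.2 ⟨i, self i⟩
    have fin : ∀ a b : ℕ, (∀ j ∈ U, a ≤ Nat.card (stabilizer E j)) →
        (∀ j ∈ Uᶜ, b ≤ Nat.card (stabilizer E j)) → U.card * a + Uᶜ.card * b ≤ 512 :=
      fun a b ha hb => le_trans (add_le_add (Finset.card_nsmul_le_sum _ _ a ha)
        (Finset.card_nsmul_le_sum _ _ b hb)) t3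
    rw [c1, cU] at s2 fin
    have c4 : (At i).card = 1 ∨ (At i).card = 2 ∨ (At i).card = 3 := by omega
    rcases c4 with e | e | e <;> rw [e] at s1 s2 fin
    · have := fin 64 4 (fun j hj => by have := s1 j hj; omega) fun j hj => by have := s2 j hj; omega
      omega
    · have := fin 32 7 (fun j hj => by have := s1 j hj; omega) fun j hj => by have := s2 j hj; omega
      omega
    · have := fin 22 22 (fun j hj => by have := s1 j hj; omega) fun j hj => by have := s2 j hj; omega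
      omega
  intro c hc
  refine Finset.eq_of_subset_of_card_le (fun p hp => ?_) (Finset.card_smul_finset _ _).ge
  obtain ⟨q, hq, rfl⟩ := Finset.mem_smul_finset.1 hp
  exact ((mA q _).1 (key q ▸ Finset.smul_mem_smul_finset (self q)) c hc).1 hq

theorem caseA {E : Subgroup M24} (hE : ∀ y ∈ E, y * y = 1) (h1 : E ≠ ⊥)
    {T : Finset (Finset GolayPt)} (hT : ∀ c ∈ T, IsWord c) (h2 : ∀ y ∈ E, ∀ c ∈ T, y • c = c)
    (hc : 2048 ≤ T.card * Nat.card E) : Nat.card E = 64 ∧ 32 ≤ T.card := by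
  by_cases hn : 11 ≤ Nat.card E
  · obtain ⟨R, h3, h4⟩ := H10.Co.exists_three hE hn
    have h5 := det hT h2 R h4
    have := Nat.pow_le_pow_right two_pos h3
    have h6 := H10.Co.card_le_64 hE h3 (by omega)
    have h7 := Nat.mul_le_mul_right (Nat.card E) (show T.card ≤ 32 by omega)
    have h8 := Nat.mul_le_mul_left T.card h6
    omega
  · exfalso
    by_cases h8 : 8 ≤ Nat.card E
    · have t1 := orb_card E
      have t2 := sum_stab hE
      obtain ⟨R, h3, h4⟩ := half (E := E) (by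
        by_contra h
        have := Nat.mul_le_mul_right (Nat.card E) (show 11 ≤ (Finset.univ.image (Ob E)).card by omega)
        omega)
      have h5 := det hT h2 R h4
      have := Nat.pow_le_pow_right two_pos h3
      have := Nat.mul_le_mul (show T.card ≤ 128 by omega) (show Nat.card E ≤ 10 by omega)
      omega
    · obtain ⟨y, hy⟩ := Subgroup.ne_bot_iff_exists_ne_one.1 h1
      have := Nat.mul_le_mul (H10.Co.card_le_256 T hT (hE y y.2) (fun e => hy (Subtype.ext e))
        (h2 y y.2)) (show Nat.card E ≤ 7 by omega)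
      omega

/-- Words fixed by `t24` up to complement that separate the points. -/
def WL : List ℕ := [5854030, 16163146, 12656663, 8536111, 11010247, 9471495]

theorem chkW : allL (fun n => Bool.and (isCode n) (Bool.or (Nat.beq (img t24 n) n)
    (Nat.beq (img t24 n) (Nat.xor n 16777215)))) WL = true ∧
    allB (fun i => allB (fun j => Bool.or (Nat.beq i j) (anyL (fun n => tb n i != tb n j) WL)) 24) 24 =
      true ∧ allL (fun n => Nat.beq (pc n) 8) (WL.drop 2) = true := by
  decide +kernel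

theorem sepW {p q : GolayPt} (h : ∀ n ∈ WL, (p ∈ toSet n ↔ q ∈ toSet n)) : p = q := by
  have h1 := of_allB (of_allB chkW.2.1 (idx_lt p)) (idx_lt q)
  rw [Bool.or_eq_true, beq_iff, anyL_iff] at h1
  rcases h1 with h1 | ⟨n, hn, h1⟩
  · rw [← pt_idx p, h1, pt_idx]
  · have h2 := h n hn
    rw [mem_toSet, mem_toSet, ← tb_eq, ← tb_eq] at h2
    revert h1 h2
    cases tb n (idx p) <;> cases tb n (idx q) <;> simp

theorem four {E : Subgroup M24} (d₁ d₂ : Finset GolayPt) (h : ∀ x x' : E,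
    ((x : M24) • d₁ = d₁ ↔ (x' : M24) • d₁ = d₁) → ((x : M24) • d₂ = d₂ ↔ (x' : M24) • d₂ = d₂) →
    x = x') : Nat.card E ≤ 4 := by
  have h4 := Nat.card_le_card_of_injective (fun x : E => (((x : M24) • d₁ = d₁, (x : M24) • d₂ = d₂) :
    Prop × Prop)) fun x x' e => h x x' (iff_of_eq (Prod.mk.inj e).1) (iff_of_eq (Prod.mk.inj e).2)
  rwa [Nat.card_prod, Nat.card_eq_fintype_card (α := Prop), Fintype.card_prop] at h4

theorem memW {n : ℕ} (hn : n ∈ WL) : n = 5854030 ∨ n = 16163146 ∨ (toSet n).card = 8 := by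
  have h1 : n = 5854030 ∨ n = 16163146 ∨ n ∈ WL.drop 2 := by
    simpa only [WL, List.mem_cons, List.drop_succ_cons, List.drop_zero] using hn
  refine h1.imp_right (Or.imp_right fun h => ?_)
  rw [card_toSet (isCode_lt (Bool.and_eq_true_iff.1 (allL_iff.1 chkW.1 n hn)).1)]
  exact beq_iff.1 (allL_iff.1 chkW.2.2 n h)

theorem caseB {E : Subgroup M24} (hE : ∀ y ∈ E, y * y = 1) {T : Finset (Finset GolayPt)}
    (hT : ∀ c ∈ T, IsWord c) (h2 : ∀ y ∈ E, ∀ c ∈ T, y • c = c ∨ y • c = cᶜ) {y : M24} (hy : y ∈ E)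
    {c : Finset GolayPt} (hc : c ∈ T) (hyc : y • c = cᶜ) : T.card * Nat.card E < 2048 := by
  classical
  haveI : Fact (Nat.Prime 2) := ⟨Nat.prime_two⟩
  have h12 : ∀ (x : M24) (d : Finset GolayPt), x • d = dᶜ → d.card = 12 := fun x d h => by
    have := congrArg Finset.card h
    rw [Finset.card_smul_finset, Finset.card_compl, card_pt] at this
    omega
  have hY24 : Nat.card E ≤ 24 := by
    have e1 := (stabilizer E c).card_mul_index
    have e2 : (stabilizer E c).index ≤ 2 := by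
      rw [index_stabilizer]
      refine (Set.ncard_le_ncard (t := {c, cᶜ}) ?_ (Set.toFinite _)).trans
        (Set.ncard_insert_le _ _ |>.trans (by simp))
      rintro _ ⟨w, rfl⟩
      exact h2 w w.2 c hc
    have e3 : Nat.card (stabilizer E c) ≤ 12 := by
      rw [← card_map_of_injective E.subtype_injective]
      refine H29.RfWcg.card_dod (d := c) ?_ ⟨hT c hc, h12 y c hyc⟩ ?_
      · rintro _ ⟨w, -, rfl⟩
        exact hE w w.2
      · rintro _ ⟨w, hw, rfl⟩
        exact hw
    have := Nat.mul_le_mul e3 e2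
    omega
  have hY16 : Nat.card E ≤ 16 := by
    obtain ⟨n, hn⟩ := IsPGroup.iff_card.1 (H10.Co.two_Y hE)
    rw [hn] at hY24 ⊢
    rcases n with _ | _ | _ | _ | _ | n <;> omega
  let S : Finset (Finset GolayPt) := Finset.univ.filter fun d => IsWord d ∧ (y • d = d ∨ y • d = dᶜ)
  have hS : S.card ≤ 128 := by
    have e1 := H29.RfWcg.fix_le_64 (hE y hy) hyc
    have e2 : (S : Set (Finset GolayPt)) ⊆ {o | o ∈ codeSets ∧ y • o = o} ∪
        (fun o => o ∆ c) '' {o | o ∈ codeSets ∧ y • o = o} := by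
      intro d hd
      obtain ⟨hd, e | e⟩ := (Finset.mem_filter.1 hd).2
      · exact Or.inl ⟨hd, e⟩
      · refine Or.inr ⟨d ∆ c, ⟨hd.symmDiff (hT c hc), ?_⟩, symmDiff_symmDiff_cancel_right _ _⟩
        rw [msmul_symmDiff, e, hyc, compl_symmDiff_compl]
    have e3 := (Set.ncard_le_ncard e2 (Set.toFinite _)).trans (Set.ncard_union_le _ _)
    have e4 := Set.ncard_image_le (f := fun o => o ∆ c) (s := {o | o ∈ codeSets ∧ y • o = o})
      (Set.toFinite _)
    rw [Set.ncard_coe_finset] at e3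
    omega
  have hTS : T ⊆ S := fun d hd => Finset.mem_filter.2 ⟨Finset.mem_univ _, hT d hd, h2 y hy d hd⟩
  by_contra hlt
  have hST : T = S := Finset.eq_of_subset_of_card_le hTS (by
    have := Nat.mul_le_mul_left T.card hY16
    omega)
  have nofix : ∀ p : GolayPt, y • p ≠ p := fun p hp => by
    have : y • p ∈ y • c ↔ p ∈ c := Finset.smul_mem_smul_finset_iff _
    rw [hp, hyc, Finset.mem_compl] at this
    tauto
  have h1 : y ≠ 1 := fun e => nofix (pt 0) (by rw [e, one_smul])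
  rcases invol_classes (orderOf_eq_prime (by rw [pow_two, hE y hy]) h1) with ⟨k, rfl⟩ | ⟨k, rfl⟩
  · obtain ⟨p, hp⟩ := Finset.card_pos.1 (show 0 < (fixSet (toM z24)).card by
      rw [card_fixSet_z24]; norm_num)
    refine absurd ?_ (nofix (k • p))
    rw [mul_smul, inv_smul_smul, mul_smul, mem_fixSet.1 hp]
  have hW : ∀ n ∈ WL, k • toSet n ∈ T := fun n hn => by
    have h3 := allL_iff.1 chkW.1 n hn
    rw [Bool.and_eq_true, Bool.or_eq_true, beq_iff, beq_iff] at h3
    refine hST ▸ Finset.mem_filter.2 ⟨Finset.mem_univ _,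
      (msmul_mem_codeSets_iff k).2 (toSet_mem_codeSets h3.1), ?_⟩
    rw [mul_smul, inv_smul_smul, mul_smul, toM_smul_toSet inM_t24]
    refine h3.2.imp (fun e => by rw [e]) fun e => by rw [e, toSet_compl, msmul_compl]
  have h4 := four (E := E) (k • toSet 5854030) (k • toSet 16163146) fun x x' ea eb => by
    have e0 : ∀ d ∈ T, ((x : M24) • d = d ↔ (x' : M24) • d = d) → (x : M24) • d = (x' : M24) • d :=
      fun d hd h => by
        by_cases h5 : (x : M24) • d = d
        · rw [h5, h.1 h5]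
        · rw [(h2 x x.2 d hd).resolve_left h5, (h2 x' x'.2 d hd).resolve_left fun h6 => h5 (h.2 h6)]
    have e1 : ∀ n ∈ WL, (x : M24) • k • toSet n = (x' : M24) • k • toSet n := fun n hn => by
      refine e0 _ (hW n hn) ?_
      rcases memW hn with h | h | h
      · rw [h]
        exact ea
      · rw [h]
        exact eb
      have h8 : (k • toSet n).card = 8 := by rw [Finset.card_smul_finset, h]
      have h9 : ∀ w ∈ E, w • k • toSet n = k • toSet n := fun w hw =>
        (h2 w hw _ (hW n hn)).resolve_right fun h => by have := h12 _ _ h; omega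
      exact iff_of_true (h9 x x.2) (h9 x' x'.2)
    have e2 : k⁻¹ * ((x : M24)⁻¹ * x') * k = 1 := m_ext fun p => sepW fun n hn => by
      rw [mul_smul, mul_smul, mul_smul, Finset.inv_smul_mem_iff, Finset.inv_smul_mem_iff, e1 n hn,
        Finset.smul_mem_smul_finset_iff, Finset.smul_mem_smul_finset_iff]
    rw [mul_assoc, inv_mul_eq_one, right_eq_mul, inv_mul_eq_one] at e2
    exact Subtype.ext e2
  have := Nat.mul_le_mul (hST ▸ hS : T.card ≤ 128) h4
  omega

theorem core {E : Subgroup M24} (hE : ∀ y ∈ E, y * y = 1) (h1 : E ≠ ⊥) {T : Finset (Finset GolayPt)}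
    (hT : ∀ c ∈ T, IsWord c) (h2 : ∀ y ∈ E, ∀ c ∈ T, y • c = c ∨ y • c = cᶜ)
    (hc : 2048 ≤ T.card * Nat.card E) {σ : M24} (h7 : σ ^ 7 = 1) (hσ : ∀ c ∈ T, σ • c ∈ T) :
    σ = 1 := by
  have h3 : ∀ y ∈ E, ∀ c ∈ T, y • c = c := fun y hy c hc' =>
    (h2 y hy c hc').resolve_right fun h => absurd (caseB hE hT h2 hy hc' h) (by omega)
  obtain ⟨h4, h5⟩ := caseA hE h1 hT h3 hc
  exact fix_all hT h5 h7 (atoms hE h4 h3 h7 hσ)

theorem f2 : F2Stmt.{u} := by
  intro G _ _ V ρ ψ hS hG Y hA sqA hY hYV s hs h7 hN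
  classical
  let f : Y →* M24 := ρ.comp (inclusion hA)
  have hcomp : ∀ c, IsWord c → ψ cᶜ = ψ c := fun c hc => by
    have := hG.add c Finset.univ hc H48.isWord_univ
    rw [(hG.ker _ H48.isWord_univ).2 (Or.inr rfl), mul_one] at this
    rw [← this]
    congr 1
    ext p
    simp [Finset.mem_symmDiff]
  have hb : f.range ≠ ⊥ := fun hb => hYV fun x hx =>
    (hS.ker ⟨x, hA hx⟩).1 (mem_bot.1 (hb.le ⟨⟨x, hx⟩, rfl⟩))
  have h5 := f.ker.card_mul_index
  rw [index_ker] at h5
  have h6 : ∀ x : f.ker, ∃ c, IsWord c ∧ ψ c = x.1.1 := fun x =>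
    hG.sur _ ((hS.ker ⟨x.1, hA x.1.2⟩).1 x.2)
  choose w hw hw' using h6
  let F : f.ker × Bool → (Finset.univ.filter fun c => IsWord c ∧ ψ c ∈ Y) := fun x =>
    if x.2 then ⟨w x.1, Finset.mem_filter.2 ⟨Finset.mem_univ _, hw _, hw' _ ▸ x.1.1.2⟩⟩
    else ⟨(w x.1)ᶜ, Finset.mem_filter.2 ⟨Finset.mem_univ _, (hw _).compl,
      by rw [hcomp _ (hw _), hw']; exact x.1.1.2⟩⟩
  have hF : ∀ x, ψ (F x).1 = x.1.1.1 := by
    rintro ⟨x, _ | _⟩
    · exact (hcomp _ (hw x)).trans (hw' x)
    · exact hw' x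
  have hne : ∀ c : Finset GolayPt, c ≠ cᶜ := fun c e => by
    have : pt 0 ∈ c ↔ pt 0 ∈ cᶜ := by rw [← e]
    rw [Finset.mem_compl] at this
    tauto
  have h8 := Nat.card_le_card_of_injective F fun x y e => by
    have e1 : x.1 = y.1 := Subtype.ext (Subtype.ext ((hF x).symm.trans (e ▸ hF y)))
    obtain ⟨x, b⟩ := x
    obtain ⟨y, b'⟩ := y
    obtain rfl : x = y := e1
    have e2 := congrArg Subtype.val e
    cases b <;> cases b'
    · rfl
    · exact absurd e2.symm (hne _)
    · exact absurd e2 (hne _)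
    · rfl
  rw [Nat.card_eq_finsetCard, Nat.card_prod, Nat.card_eq_fintype_card (α := Bool),
    Fintype.card_bool] at h8
  have h9 := Nat.mul_le_mul_right (Nat.card f.range) h8
  rw [mul_right_comm, h5] at h9
  have h4 : ρ ⟨s, hs⟩ = 1 := core (E := f.range) (by
      rintro _ ⟨x, rfl⟩
      rw [← map_mul, show x * x = 1 from Subtype.ext (sqA x x.2), map_one]) hb
    (T := Finset.univ.filter fun c => IsWord c ∧ ψ c ∈ Y)
    (fun c hc => (Finset.mem_filter.1 hc).2.1) (by
      rintro _ ⟨x, rfl⟩ c hc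
      obtain ⟨hc, h4⟩ := (Finset.mem_filter.1 hc).2
      have h5 := hG.act ⟨x, hA x.2⟩ c hc
      have hw : IsWord (f x • c) := (msmul_mem_codeSets_iff (f x)).2 hc
      have h6 : ψ (f x • c) = ψ c := by
        refine h5.symm.trans ?_
        rw [mul_inv_eq_iff_eq_mul]
        exact H29.RfWcg.comm_sq sqA x.2 h4
      have h7 := hG.add _ _ hw hc
      rw [h6, hS.el _ (hG.mem c hc), hG.ker _ (hw.symmDiff hc)] at h7
      rcases h7 with e | e
      · exact Or.inl (symmDiff_eq_bot.1 e)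
      · right
        rw [← symmDiff_symmDiff_cancel_right c (f x • c), e]
        ext p
        simp [Finset.mem_symmDiff]) (by omega)
    (by rw [← map_pow, show (⟨s, hs⟩ : NN V) ^ 7 = 1 from Subtype.ext h7, map_one]) fun c hc => by
      obtain ⟨hc, h4⟩ := (Finset.mem_filter.1 hc).2
      refine Finset.mem_filter.2 ⟨Finset.mem_univ _, (msmul_mem_codeSets_iff _).2 hc, ?_⟩
      rw [← hG.act ⟨s, hs⟩ c hc]
      exact ((mem_normalizer_iff.1 hN _).1 ⟨h4, hG.mem c hc⟩).1
  have h10 := hS.el s ((hS.ker _).1 h4)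
  rw [show s ^ 7 = (s * s) ^ 3 * s by rw [← sq, ← pow_mul, ← pow_succ], h10, one_pow, one_mul] at h7
  exact h7

end Cfsg.Agent.H65.RfF2
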