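import Mathlib
import Cfsg.Agent.S0280
import Cfsg.Agent.S0243

/-!
# The order `q³(q³+1)(q²-1)/(3,q+1)` among the simple groups of `2`-rank `2`
-/

set_option autoImplicit false

namespace Cfsg.Agent.H65.UO

/-- `N` is the order of `U₃(pⁿ)`, `p` odd. -/
structure Ord (N p n : ℕ) : Prop where
  hp : p.Prime
  odd : Odd p
  pos : 1 ≤ n
  eq : Nat.gcd 3 (p ^ n + 1) * N = (p ^ n) ^ 3 * (((p ^ n) ^ 3 + 1) * ((p ^ n) ^ 2 - 1))

theorem gcd3 (x : ℕ) : Nat.gcd 3 x = 1 ∨ Nat.gcd 3 x = 3 :=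
  (Nat.dvd_prime Nat.prime_three).1 (Nat.gcd_dvd_left _ _)

theorem cop_succ {l x : ℕ} (h : l ∣ x) : l.Coprime (x + 1) := by
  obtain ⟨c, rfl⟩ := h
  rw [add_comm, Nat.coprime_add_mul_left_right]
  exact Nat.coprime_one_right _

theorem cop_pred {l x : ℕ} (h : l ∣ x) (hx : 0 < x) : l.Coprime (x - 1) := by
  obtain ⟨y, rfl⟩ : ∃ y, x = y + 1 := ⟨x - 1, by omega⟩
  rw [Nat.add_sub_cancel]
  exact ((cop_succ (dvd_refl y)).symm).coprime_dvd_left h

namespace Ord

variable {N p n : ℕ} (h : Ord N p n)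
include h

theorem three_le : 3 ≤ p ^ n := by
  have h1 := h.hp.two_le
  have h2 := h.odd
  have : 3 ≤ p := by rw [Nat.odd_iff] at h2; omega
  exact this.trans (Nat.le_self_pow (by have := h.pos; omega) p)

theorem dvd : p ∣ p ^ n := dvd_pow_self p (by have := h.pos; omega)

theorem lt : (p ^ n) ^ 6 < N := by
  have h3 := h.three_le
  have e := h.eq
  generalize p ^ n = q at h3 e
  have h1 : 8 ≤ q ^ 2 - 1 := by
    have : 3 ^ 2 ≤ q ^ 2 := Nat.pow_le_pow_left h3 2
    omega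
  have h2 : q ^ 3 * ((q ^ 3 + 1) * 8) ≤ 3 * N := by
    calc _ ≤ q ^ 3 * ((q ^ 3 + 1) * (q ^ 2 - 1)) := by gcongr
      _ ≤ _ := by rw [← e]; exact Nat.mul_le_mul_right _ (Nat.le_of_dvd three_pos (Nat.gcd_dvd_left _ _))
  have : 0 < q ^ 3 := by positivity
  nlinarith

theorem cop : p.Coprime (Nat.gcd 3 (p ^ n + 1)) :=
  (cop_succ h.dvd).coprime_dvd_right (Nat.gcd_dvd_right _ _)

theorem cop' : p.Coprime (((p ^ n) ^ 3 + 1) * ((p ^ n) ^ 2 - 1)) :=
  (cop_succ (h.dvd.trans (dvd_pow_self _ three_ne_zero))).mul_right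
    (cop_pred (h.dvd.trans (dvd_pow_self _ two_ne_zero)) (by have := h.three_le; positivity))

theorem cube_dvd : (p ^ n) ^ 3 ∣ N :=
  ((h.cop.pow_left n).pow_left 3).dvd_of_dvd_mul_left (h.eq ▸ dvd_mul_right _ _)

theorem small : N ≠ 2520 ∧ N ≠ 7920 ∧ N ≠ 62400 := by
  have d := h.cube_dvd
  have h3 := h.three_le
  have o : Odd (p ^ n) := h.odd.pow
  generalize p ^ n = q at d h3 o
  have key : ∀ M, M ≠ 0 → M < 64000 → q ^ 3 ∣ M → q < 40 := fun M h0 h1 h2 => by
    have := Nat.le_of_dvd (Nat.pos_of_ne_zero h0) h2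
    exact lt_of_pow_lt_pow_left₀ 3 (by norm_num) (by omega)
  rw [Nat.odd_iff] at o
  refine ⟨?_, ?_, ?_⟩ <;> rintro rfl <;> have := key _ (by norm_num) (by norm_num) d <;>
    interval_cases q <;> omega

/-- the `p`-part of `N` -/
theorem same {b k y : ℕ} (e : b * N = p ^ k * y) (hb : p.Coprime b) (hy : p.Coprime y) :
    p ^ k = (p ^ n) ^ 3 := by
  refine Nat.dvd_antisymm ?_ ?_
  · have d : p ^ k ∣ N := (hb.pow_left k).dvd_of_dvd_mul_left (e ▸ dvd_mul_right _ _)
    exact (h.cop'.pow_left k).dvd_of_dvd_mul_right (h.eq ▸ d.mul_left _)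
  · exact ((hy.pow_left n).pow_left 3).dvd_of_dvd_mul_right (e ▸ h.cube_dvd.mul_left _)

/-- the `l`-part of `N` for an odd prime `l ≠ p` -/
theorem diff {l k : ℕ} (hl : l.Prime) (ol : Odd l) (ne : l ≠ p) (d : l ^ k ∣ N) :
    l ^ k ≤ (p ^ n) ^ 2 := by
  have e := h.eq
  have c0 : l.Coprime (p ^ n) := ((Nat.coprime_primes hl h.hp).2 ne).pow_right n
  have h3 := h.three_le
  obtain ⟨s, hs⟩ : Odd (p ^ n) := h.odd.pow
  rw [hs] at e c0 h3 ⊢
  have c2 : l.Coprime 2 := Nat.coprime_two_right.2 ol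
  have e1 : (2 * s + 1) ^ 2 - 1 = 4 * (s * (s + 1)) := by
    rw [Nat.sub_eq_iff_eq_add (Nat.one_le_pow _ _ (by omega))]; ring
  have c1 : l.Coprime ((2 * s + 1) ^ 3 * 2 ^ 3) := (c0.pow_right 3).mul_right (c2.pow_right 3)
  have nd := fun x => (hl.coprime_iff_not_dvd (n := x)).2
  have s0 : 0 < s := by omega
  by_cases h1 : l ∣ s + 1
  · have cs : l.Coprime s := by simpa using cop_pred h1 (by omega)
    refine (Nat.le_of_dvd (by positivity) (?_ : l ^ k ∣ (s + 1) ^ 2)).trans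
      (Nat.pow_le_pow_left (by omega) 2)
    by_cases h2 : l ∣ 4 * s ^ 2 + 2 * s + 1
    · have : l ∣ 3 := by
        have e2 : (s + 1) * (4 * s + 4) + 3 = (4 * s ^ 2 + 2 * s + 1) + (s + 1) * 6 := by ring
        exact (Nat.dvd_add_right (h1.mul_right _)).1 (e2 ▸ h2.add (h1.mul_right 6))
      obtain rfl := (Nat.prime_dvd_prime_iff_eq hl Nat.prime_three).1 this
      obtain ⟨t, rfl⟩ : ∃ t, s = 3 * t + 2 := ⟨s / 3, by omega⟩
      rw [Nat.gcd_eq_left (by omega), e1] at e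
      have e3 : N = ((2 * (3 * t + 2) + 1) ^ 3 * 2 ^ 3 * ((3 * t + 2) * (12 * t ^ 2 + 18 * t + 7))) *
          (3 * t + 2 + 1) ^ 2 := by
        apply Nat.eq_of_mul_eq_mul_left three_pos
        rw [e]; ring
      refine ((c1.mul_right (cs.mul_right (nd _ ?_))).pow_left k).dvd_of_dvd_mul_left (e3 ▸ d)
      omega
    · refine ((c1.mul_right (cs.mul_right (nd _ h2))).pow_left k).dvd_of_dvd_mul_left ?_
      have := d.mul_left (Nat.gcd 3 (2 * s + 1 + 1))
      rw [e, e1] at this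
      exact this.trans (dvd_of_eq (by ring))
  have := d.mul_left (Nat.gcd 3 (2 * s + 1 + 1))
  rw [e, e1] at this
  by_cases h2 : l ∣ s
  · have c3 : l.Coprime (4 * s ^ 2 + 2 * s + 1) :=
      cop_succ (((h2.trans (dvd_pow_self s two_ne_zero)).mul_left 4).add (h2.mul_left 2))
    refine (Nat.le_of_dvd s0 (((c1.mul_right (((nd _ h1).pow_right 2).mul_right c3)).pow_left
      k).dvd_of_dvd_mul_left ?_)).trans (by nlinarith)
    exact this.trans (dvd_of_eq (by ring))
  · refine (Nat.le_of_dvd (by positivity) (((c1.mul_right (((nd _ h1).pow_right 2).mul_right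
      (nd _ h2))).pow_left k).dvd_of_dvd_mul_left (n := 4 * s ^ 2 + 2 * s + 1) ?_)).trans (by nlinarith)
    exact this.trans (dvd_of_eq (by ring))

theorem not_two {l k : ℕ} (hl : l.Prime) (ol : Odd l) (hk : 0 < k)
    (e : 2 * N = l ^ k * ((l ^ k) ^ 2 - 1)) : False := by
  have c2 : l.Coprime 2 := Nat.coprime_two_right.2 ol
  by_cases ne : l = p
  · subst ne
    have e1 := h.same e c2 (cop_pred ((dvd_pow_self _ hk.ne').trans (dvd_pow_self _ two_ne_zero))
      (by have := hl.pos; positivity))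
    have e2 := h.eq
    have h3 := h.three_le
    rw [e1] at e
    have g : 1 ≤ Nat.gcd 3 (l ^ n + 1) := Nat.gcd_pos_of_pos_left _ three_pos
    generalize Nat.gcd 3 (l ^ n + 1) = d at e2 g
    generalize l ^ n = q at e e2 h3
    obtain ⟨x, hx⟩ : ∃ x, q ^ 3 = x + 1 := ⟨q ^ 3 - 1, by have : 0 < q ^ 3 := by positivity
                                                          omega⟩
    obtain ⟨y, hy⟩ : ∃ y, q ^ 2 = y + 1 := ⟨q ^ 2 - 1, by have : 0 < q ^ 2 := by positivity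
                                                          omega⟩
    have hxy : 3 * (y + 1) ≤ x + 1 := by rw [← hx, ← hy, pow_succ' q 2]; gcongr
    rw [hx, show (x + 1) ^ 2 - 1 = (x + 1 + 1) * x by rw [Nat.sub_eq_iff_eq_add (by nlinarith)]; ring] at e
    rw [hx, hy, Nat.add_sub_cancel] at e2
    have : (x + 1) * (x + 1 + 1) * (d * x) = (x + 1) * (x + 1 + 1) * (2 * y) := by
      linear_combination 2 * e2 - d * e
    have := Nat.eq_of_mul_eq_mul_left (by positivity) this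
    nlinarith
  · have d := h.diff hl ol ne ((c2.pow_left k).dvd_of_dvd_mul_left (e ▸ dvd_mul_right _ _))
    have := h.lt
    have h1 : l ^ k * ((l ^ k) ^ 2 - 1) ≤ (p ^ n) ^ 2 * ((p ^ n) ^ 2) ^ 2 :=
      Nat.mul_le_mul d ((Nat.sub_le _ _).trans (Nat.pow_le_pow_left d 2))
    nlinarith

theorem three_eq {l k b y : ℕ} (hl : l.Prime) (ol : Odd l) (b0 : 0 < b) (hb : l.Coprime b)
    (hy : l.Coprime y) (le : y ≤ (l ^ k) ^ 5) (e : b * N = (l ^ k) ^ 3 * y) : l ^ k = p ^ n := by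
  rw [← pow_mul] at e
  by_cases ne : l = p
  · subst ne
    have e1 := h.same e hb hy
    rw [pow_mul] at e1
    exact Nat.pow_left_injective three_ne_zero e1
  · have d := h.diff hl ol ne ((hb.pow_left (k * 3)).dvd_of_dvd_mul_left (e ▸ dvd_mul_right _ _))
    have := h.lt
    rw [pow_mul] at d e
    have r0 : 0 < l ^ k := by have := hl.pos; positivity
    generalize l ^ k = r at *
    generalize p ^ n = q at *
    have h1 : r ^ 2 ≤ q ^ 2 := (Nat.pow_le_pow_right r0 (by norm_num)).trans d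
    have h2 : r ^ 3 * y ≤ q ^ 2 * (q ^ 2 * q ^ 2) :=
      Nat.mul_le_mul d (le.trans (by rw [show 5 = 3 + 2 from rfl, pow_add]; exact Nat.mul_le_mul d h1))
    nlinarith

end Ord

theorem exists_char {F : Type*} [Field F] [Fintype F] {r m : ℕ} (hm : 0 < m) (hF : Fintype.card F = r ^ m)
    (ho : Odd r) : ∃ l k, l.Prime ∧ Odd l ∧ 0 < k ∧ r = l ^ k := by
  have := FiniteField.isPrimePow_card F
  rw [hF, isPrimePow_pow_iff hm.ne'] at this
  obtain ⟨l, k, hl, hk, rfl⟩ := (isPrimePow_nat_iff _).1 this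
  exact ⟨l, k, hl, (Nat.odd_pow_iff hk.ne').1 ho, hk, rfl⟩

variable {N p n : ℕ} (h : Ord N p n) {F : Type*} [Field F] [Fintype F]
include h

theorem not_psl2 (ho : Odd (Fintype.card F))
    (e : N = Nat.card (Matrix.ProjectiveSpecialLinearGroup (Fin 2) F)) : False := by
  obtain ⟨l, k, hl, ol, hk, hr⟩ := exists_char (F := F) one_pos (pow_one _).symm ho
  have c := S0243.result hr 2 le_rfl
  rw [hr] at ho
  refine h.not_two hl ol hk ?_
  have h1 := Nat.one_lt_pow hk.ne' hl.one_lt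
  generalize l ^ k = r at c ho h1
  obtain ⟨s, rfl⟩ := ho
  rw [← e, Nat.add_sub_cancel, Nat.gcd_eq_left (dvd_mul_right 2 s), Fin.prod_univ_two] at c
  simp only [Fin.val_zero, Fin.val_one, pow_zero, pow_one] at c
  rw [show (2 * s + 1) ^ 2 - (2 * s + 1) = 2 * s * (2 * s + 1) by
    rw [Nat.sub_eq_iff_eq_add (by nlinarith)]; ring] at c
  exact Nat.eq_of_mul_eq_mul_left (show 0 < 2 * s by omega) (by linear_combination c)

theorem not_psl3 (ho : Odd (Fintype.card F))
    (e : N = Nat.card (Matrix.ProjectiveSpecialLinearGroup (Fin 3) F)) : False := by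
  obtain ⟨l, k, hl, ol, hk, hr⟩ := exists_char (F := F) one_pos (pow_one _).symm ho
  have c := S0243.result hr 3 (by norm_num)
  have h1 := Nat.one_lt_pow hk.ne' hl.one_lt
  have d := dvd_pow_self l hk.ne'
  have e1 : Nat.gcd 3 (l ^ k - 1) * N = (l ^ k) ^ 3 * (((l ^ k) ^ 3 - 1) * ((l ^ k) ^ 2 - 1)) := by
    generalize l ^ k = r at c h1
    obtain ⟨s, rfl⟩ : ∃ s, r = s + 1 := ⟨r - 1, by omega⟩
    rw [← e, Fin.prod_univ_three] at c
    simp only [Fin.val_zero, Fin.val_one, Fin.val_two, pow_zero, pow_one, Nat.add_sub_cancel] at c ⊢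
    have a1 : (s + 1) ^ 3 - (s + 1) = (s + 1) * ((s + 1) ^ 2 - 1) := by
      rw [Nat.mul_sub, mul_one, ← pow_succ']
    have a2 : (s + 1) ^ 3 - (s + 1) ^ 2 = (s + 1) ^ 2 * s := by
      rw [Nat.sub_eq_iff_eq_add (Nat.pow_le_pow_right (by omega) (by omega))]; ring
    rw [a1, a2] at c
    exact Nat.eq_of_mul_eq_mul_left (show 0 < s by omega) (by linear_combination c)
  have e2 := h.three_eq hl ol (Nat.gcd_pos_of_pos_left _ three_pos)
    ((cop_pred d (by omega)).coprime_dvd_right (Nat.gcd_dvd_right _ _))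
    ((cop_pred (d.trans (dvd_pow_self _ three_ne_zero)) (by positivity)).mul_right
      (cop_pred (d.trans (dvd_pow_self _ two_ne_zero)) (by positivity)))
    (by rw [show 5 = 3 + 2 from rfl, pow_add]; exact Nat.mul_le_mul (Nat.sub_le _ _) (Nat.sub_le _ _)) e1
  have e3 := h.eq
  have h3 := h.three_le
  rw [e2] at e1
  have g1 := gcd3 (p ^ n - 1)
  have g2 := gcd3 (p ^ n + 1)
  generalize Nat.gcd 3 (p ^ n - 1) = a at e1 g1
  generalize Nat.gcd 3 (p ^ n + 1) = b at e3 g2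
  generalize p ^ n = q at e1 e3 h3
  have h4 : 3 ^ 3 ≤ q ^ 3 := Nat.pow_le_pow_left h3 3
  have h5 : 3 ^ 2 ≤ q ^ 2 := Nat.pow_le_pow_left h3 2
  have : q ^ 3 * (q ^ 2 - 1) * (b * (q ^ 3 - 1)) = q ^ 3 * (q ^ 2 - 1) * (a * (q ^ 3 + 1)) := by
    linear_combination a * e3 - b * e1
  have := Nat.eq_of_mul_eq_mul_left (Nat.mul_pos (by omega) (by omega)) this
  rcases g1 with rfl | rfl <;> rcases g2 with rfl | rfl <;> omega

theorem psu_eq {r : ℕ} (hF : Fintype.card F = r ^ 2) (ho : Odd r) (e : N = Nat.card (PSU 3 F r)) :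
    r = p ^ n := by
  obtain ⟨l, k, hl, ol, hk, rfl⟩ := exists_char two_pos hF ho
  have c := S0280.result hF 3 (by norm_num)
  have h1 := Nat.one_lt_pow hk.ne' hl.one_lt
  have d := dvd_pow_self l hk.ne'
  have e1 : Nat.gcd 3 (l ^ k + 1) * N = (l ^ k) ^ 3 * (((l ^ k) ^ 3 + 1) * ((l ^ k) ^ 2 - 1)) := by
    rw [← e] at c
    simp only [Finset.prod_range_succ, Finset.prod_range_zero] at c
    norm_num at c
    exact Nat.eq_of_mul_eq_mul_left (show 0 < l ^ k + 1 by omega) (by linear_combination c)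
  refine h.three_eq hl ol (Nat.gcd_pos_of_pos_left _ three_pos)
    ((cop_succ d).coprime_dvd_right (Nat.gcd_dvd_right _ _))
    ((cop_succ (d.trans (dvd_pow_self _ three_ne_zero))).mul_right
      (cop_pred (d.trans (dvd_pow_self _ two_ne_zero)) (by positivity))) ?_ e1
  generalize l ^ k = r at h1
  obtain ⟨y, hy⟩ : ∃ y, r ^ 2 = y + 1 := ⟨r ^ 2 - 1, by have : 0 < r ^ 2 := by positivity
                                                        omega⟩
  have : r ^ 2 ≤ r ^ 3 := Nat.pow_le_pow_right (by omega) (by omega)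
  rw [show 5 = 3 + 2 from rfl, pow_add, hy, Nat.add_sub_cancel]
  nlinarith

end Cfsg.Agent.H65.UO
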